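import Mathlib

/-!
Interfaces for the degree bound for alternating sections of linear groups.
-/

set_option autoImplicit false

namespace Cfsg.Agent.AltL

universe u

/-- the bound -/
def bd (p r : ℕ) : ℕ := r - 1 - (if p ∣ r then 1 else 0)

/-- the bound for representations of the alternating group -/
def T1 : Prop := ∀ (k : Type) [Field k] [IsAlgClosed k] (p : ℕ) [Fact p.Prime] [CharP k p]
  (V : Type) [AddCommGroup V] [Module k V] [FiniteDimensional k V] (r : ℕ), 9 ≤ r →
  ∀ ρ : Representation k (alternatingGroup (Fin r)) V, (∃ g, ρ g ≠ 1) → bd p r ≤ Module.finrank k V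

/-- the bound when two disjoint elements have vanishing double commutator -/
def TB : Prop := ∀ (k : Type) [Field k] (p : ℕ) [Fact p.Prime] [CharP k p]
  (V : Type) [AddCommGroup V] [Module k V] [FiniteDimensional k V] (r : ℕ), 9 ≤ r →
  ∀ ρ : Representation k (alternatingGroup (Fin r)) V, (∃ g, ρ g ≠ 1) →
  (∀ u v : alternatingGroup (Fin r), u.1.IsThreeCycle → v.1.IsThreeCycle → u.1.Disjoint v.1 →
    (ρ u - 1) * (ρ v - 1) = 0) → bd p r ≤ Module.finrank k V

/-- from one pair to all pairs of disjoint `3`-cycles -/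
def TG : Prop := ∀ (R : Type) [Ring R] (r : ℕ), 9 ≤ r → ∀ ρ : alternatingGroup (Fin r) →* R,
  (∃ u v : alternatingGroup (Fin r), u ≠ 1 ∧ v ≠ 1 ∧ u.1.Disjoint v.1 ∧ u.1.support.card + 5 ≤ r ∧
    (ρ u - 1) * (ρ v - 1) = 0) →
  ∀ u v : alternatingGroup (Fin r), u.1.IsThreeCycle → v.1.IsThreeCycle → u.1.Disjoint v.1 →
    (ρ u - 1) * (ρ v - 1) = 0

/-- the bound for spin representations -/
def T2 : Prop := ∀ (k : Type) [Field k] [IsAlgClosed k] (p : ℕ) [Fact p.Prime] [CharP k p], p ≠ 2 →
  ∀ (V : Type) [AddCommGroup V] [Module k V] [FiniteDimensional k V] [Nontrivial V] (r : ℕ), 9 ≤ r →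
  ∀ (H : Type u) [Group H] [Finite H] (π : H →* alternatingGroup (Fin r)) (z : H),
  Function.Surjective π → z ∈ Subgroup.center H → (∀ h, π h = 1 ↔ h = 1 ∨ h = z) → Group.IsPerfect H →
  ∀ ρ : Representation k H V, ρ z = -1 → bd p r ≤ Module.finrank k V

/-- the bound for perfect central extensions -/
def TC : Prop := ∀ (k : Type) [Field k] [IsAlgClosed k] (p : ℕ) [Fact p.Prime] [CharP k p]
  (V : Type) [AddCommGroup V] [Module k V] [FiniteDimensional k V] (r : ℕ), 9 ≤ r →
  ∀ (H : Type u) [Group H] [Finite H] (π : H →* alternatingGroup (Fin r)),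
  Function.Surjective π → π.ker ≤ Subgroup.center H → Group.IsPerfect H →
  ∀ ρ : Representation k H V, (∃ g, ρ g ≠ 1) → bd p r ≤ Module.finrank k V

end Cfsg.Agent.AltL
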