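import Mathlib
import Cfsg.Agent.AltL.Def
import Cfsg.Agent.BG.RepWeight

/-! The degree bound for alternating sections: the case of a noncentral kernel. -/

set_option autoImplicit false
set_option linter.unusedSectionVars false

namespace Cfsg.Agent.AltL
open Subgroup Module Cfsg.Agent.BG.RepWeight
open scoped commutatorElement

universe u

theorem a2_li {k M G ι : Type*} [Field k] [AddCommGroup M] [Module k M] (f : G → Module.End k M)
    (v : ι → M) (hv : ∀ i, v i ≠ 0) (χ : ι → G → k) (hχ : Function.Injective χ)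
    (h : ∀ i g, f g (v i) = χ i g • v i) : LinearIndependent k v := by
  classical
  rw [linearIndependent_iff']
  intro s
  induction s using Finset.induction_on with
  | empty => simp
  | insert a s ha ih =>
    intro c hc
    rw [Finset.sum_insert ha] at hc
    have key : ∀ i ∈ s, c i = 0 := by
      intro i hi
      have hne : χ i ≠ χ a := fun e => ha (hχ e ▸ hi)
      obtain ⟨g, hg⟩ := Function.ne_iff.mp hne
      have h1 := congrArg (f g) hc
      have h3 := congrArg (fun x => χ a g • x) hc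
      simp only [map_add, map_sum, map_smul, h, map_zero, smul_smul] at h1
      simp only [smul_add, Finset.smul_sum, smul_smul, smul_zero, mul_comm (χ a g)] at h3
      have h2 : ∑ j ∈ s, (c j * (χ j g - χ a g)) • v j = 0 := by
        simp only [mul_sub, sub_smul, Finset.sum_sub_distrib]
        rw [sub_eq_zero]
        exact add_left_cancel (h1.trans h3.symm)
      exact (mul_eq_zero.mp (ih _ h2 i hi)).resolve_right (sub_ne_zero.mpr hg)
    intro i hi
    rcases Finset.mem_insert.mp hi with rfl | hi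
    · rw [Finset.sum_eq_zero (fun j hj => by rw [key j hj, zero_smul]), add_zero] at hc
      exact (smul_eq_zero.mp hc).resolve_right (hv _)
    · exact key i hi

theorem a2_mat0 {A : Type*} [AddCommGroup A] [Finite A] {l : ℕ} [Fact l.Prime] [Module (ZMod l) A]
    {H : Type*} [Group H] (ψ : H → A →+ A) (h1 : ∀ x, ψ 1 x = x)
    (h2 : ∀ a b x, ψ (a * b) x = ψ a (ψ b x)) :
    ∃ (d : ℕ) (σ : H →* Matrix (Fin d) (Fin d) (ZMod l)), Nat.card A = l ^ d ∧
      ∀ g, σ g = 1 → ∀ x, ψ g x = x := by
  let σ0 : H →* (A →ₗ[ZMod l] A) :=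
    { toFun := fun g => (ψ g).toZModLinearMap l
      map_one' := LinearMap.ext h1
      map_mul' := fun a b => LinearMap.ext (h2 a b) }
  let b := Module.finBasis (ZMod l) A
  refine ⟨_, (LinearMap.toMatrixAlgEquiv b).toMulEquiv.toMonoidHom.comp σ0, ?_, fun g hg x => ?_⟩
  · have := Module.natCard_eq_pow_finrank (K := ZMod l) (V := A)
    rwa [Nat.card_zmod] at this
  · have h3 : σ0 g = 1 := (LinearMap.toMatrixAlgEquiv b).injective (hg.trans (map_one _).symm)
    exact LinearMap.congr_fun h3 x

theorem a2_mat {E : Type*} [CommGroup E] [Finite E] {l : ℕ} [Fact l.Prime] (h : ∀ x : E, x ^ l = 1)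
    {H : Type*} [Group H] (φ : H →* MulAut E) :
    ∃ (d : ℕ) (σ : H →* Matrix (Fin d) (Fin d) (ZMod l)), Nat.card E = l ^ d ∧
      ∀ g, σ g = 1 → ∀ x, φ g x = x := by
  obtain ⟨d, σ, h1, h2⟩ := @a2_mat0 (Additive E) _ _ l _ (AddCommGroup.zmodModule h) H _
    (fun g => MonoidHom.toAdditive (φ g).toMonoidHom) (fun x => by rw [map_one]; rfl)
    (fun a b x => by rw [map_mul]; rfl)
  exact ⟨d, σ, h1, fun g hg x => h2 g hg (Additive.ofMul x)⟩

section
variable {r : ℕ} (hr : 9 ≤ r) {H : Type u} [Group H] [Finite H]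
  (π : H →* alternatingGroup (Fin r)) (hπ : Function.Surjective π)
  (hmin : ∀ L : Subgroup H, L.map π = ⊤ → L = ⊤)
include hr hπ hmin

theorem a2_normal (N : Subgroup H) (hN : N.Normal) : N ≤ π.ker ∨ N = ⊤ := by
  have : IsSimpleGroup (alternatingGroup (Fin r)) := alternatingGroup.isSimpleGroup (by simp; omega)
  rcases (hN.map π hπ).eq_bot_or_eq_top with h | h
  · exact Or.inl ((Subgroup.map_eq_bot_iff _).mp h)
  · exact Or.inr (hmin N h)

theorem a2_ker {M : Type*} [Group M] (f : H →* M) (hf : ∃ h, f h ≠ 1) : f.ker ≤ π.ker := by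
  rcases a2_normal hr π hπ hmin f.ker inferInstance with h | h
  · exact h
  · obtain ⟨g, hg⟩ := hf
    exact absurd (show g ∈ f.ker from h ▸ mem_top g) hg

theorem a2_card {M : Type*} [Group M] [Finite M] (f : H →* M) (hf : ∃ h, f h ≠ 1) :
    r.factorial ≤ 2 * Nat.card M := by
  have h1 := index_dvd_of_le (a2_ker hr π hπ hmin f hf)
  rw [index_ker, index_ker, MonoidHom.range_eq_top.mpr hπ, card_top] at h1
  have : Nontrivial (Fin r) := Fin.nontrivial_iff_two_le.mpr (by omega)
  have h2 := two_mul_nat_card_alternatingGroup (α := Fin r)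
  rw [Nat.card_perm, Nat.card_eq_fintype_card (α := Fin r), Fintype.card_fin] at h2
  have h3 := Nat.le_of_dvd Nat.card_pos (h1.trans (card_subgroup_dvd_card _))
  omega

theorem a2_cent {R : Subgroup H} (h : ⁅R, (⊤ : Subgroup H)⁆ ≤ center H) : R ≤ center H := by
  have hp : ⁅(⊤ : Subgroup H), (⊤ : Subgroup H)⁆ = ⊤ := by
    rcases a2_normal hr π hπ hmin ⁅(⊤ : Subgroup H), (⊤ : Subgroup H)⁆ inferInstance with h | h
    · exfalso
      have : IsSimpleGroup (alternatingGroup (Fin r)) :=
        alternatingGroup.isSimpleGroup (by simp; omega)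
      have hc : ∀ a b : alternatingGroup (Fin r), a * b = b * a := fun a b => by
        obtain ⟨a, rfl⟩ := hπ a
        obtain ⟨b, rfl⟩ := hπ b
        have := h (commutator_mem_commutator (mem_top a) (mem_top b))
        rw [MonoidHom.mem_ker, map_commutatorElement] at this
        exact commutatorElement_eq_one_iff_mul_comm.mp this
      let C : CommGroup (alternatingGroup (Fin r)) := { (inferInstance : Group _) with mul_comm := hc }
      have h1 := IsSimpleGroup.prime_card (α := alternatingGroup (Fin r))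
      have : Nontrivial (Fin r) := Fin.nontrivial_iff_two_le.mpr (by omega)
      have h2 := two_mul_nat_card_alternatingGroup (α := Fin r)
      rw [Nat.card_perm, Nat.card_eq_fintype_card (α := Fin r), Fintype.card_fin] at h2
      have h3 : (8 : ℕ) ∣ r.factorial := Nat.dvd_factorial (by norm_num) (by omega)
      have h4 : 4 ∣ Nat.card (alternatingGroup (Fin r)) := by omega
      rcases (Nat.dvd_prime h1).mp h4 with h5 | h5
      · omega
      · rw [← h5] at h1; exact absurd h1 (by norm_num)
    · exact h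
  have h1 : ⁅⁅R, (⊤ : Subgroup H)⁆, (⊤ : Subgroup H)⁆ = ⊥ := by
    rw [commutator_eq_bot_iff_le_centralizer, coe_top, centralizer_univ]; exact h
  have h2 := commutator_commutator_eq_bot_of_rotate (H₁ := ⊤) (H₂ := ⊤) (H₃ := R)
    (by rw [commutator_comm ⊤ R]; exact h1) h1
  rw [hp, commutator_comm, commutator_eq_bot_iff_le_centralizer, coe_top, centralizer_univ] at h2
  exact h2

theorem a2_lt {R : Subgroup H} [R.Normal] (hR : R ≤ π.ker) (h : R ≠ ⊥) : ⁅R, R⁆ < R := by
  have hF : π.ker ≤ frattini H := by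
    refine le_iInf fun M => le_iInf fun hM => ?_
    by_contra hn
    have h1 : M ⊔ π.ker = ⊤ := hM.2 _ (lt_of_le_of_ne le_sup_left fun e => hn (e ▸ le_sup_right))
    refine hM.1 (hmin M ?_)
    have := congrArg (Subgroup.map π) h1
    rwa [Subgroup.map_sup, (Subgroup.map_eq_bot_iff _).mpr le_rfl, sup_bot_eq, ← MonoidHom.range_eq_map,
      MonoidHom.range_eq_top.mpr hπ] at this
  have : Group.IsNilpotent (frattini H) := frattini_nilpotent
  have : Group.IsNilpotent R := Group.nilpotent_of_mulEquiv (subgroupOfEquivOfLe (hR.trans hF))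
  have : Nontrivial R := (nontrivial_iff_ne_bot R).mpr h
  have h1 := Group.IsSolvable.commutator_lt_top_of_nontrivial R
  have h2 : (_root_.commutator R).map R.subtype = ⁅R, R⁆ := by
    rw [_root_.commutator_def, map_commutator, ← MonoidHom.range_eq_map, range_subtype]
  refine lt_of_le_of_ne (commutator_le_left R R) fun e => h1.ne ?_
  apply map_injective R.subtype_injective
  rw [h2, e, ← MonoidHom.range_eq_map, range_subtype]

variable {k : Type} [Field k] [IsAlgClosed k] {V : Type} [AddCommGroup V] [Module k V]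
  [FiniteDimensional k V] [Nontrivial V] (ρ : Representation k H V) (hρ : Function.Injective ρ)
  (hirr : ∀ W : Submodule k V, (∀ h, ∀ v ∈ W, ρ h v ∈ W) → W = ⊥ ∨ W = ⊤)
include hρ hirr

theorem a2_ab {R : Subgroup H} [hR : R.Normal] (hc : ∀ a ∈ R, ∀ b ∈ R, a * b = b * a)
    (hnc : ¬ R ≤ center H) : r - 1 ≤ finrank k V := by
  let W := {χ : R → k // ∃ v : V, v ≠ 0 ∧ ∀ x : R, ρ x v = χ x • v}
  have hcj : ∀ (h : H) (x : R), h⁻¹ * x * h ∈ R := fun h x => hR.conj_mem' _ x.2 h
  have hv : ∀ (χ : R → k) (v : V), (∀ x : R, ρ x v = χ x • v) → ∀ (h : H) (x : R),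
      ρ x (ρ h v) = χ ⟨_, hcj h x⟩ • ρ h v := fun χ v hv h x => by
    rw [← map_smul, ← hv, ← Module.End.mul_apply, ← Module.End.mul_apply, ← map_mul, ← map_mul]
    congr 2; group
  have hne : ∀ (h : H) (v : V), v ≠ 0 → ρ h v ≠ 0 := fun h v hv e => hv (by
    have := congrArg (ρ h⁻¹) e
    rwa [← Module.End.mul_apply, ← map_mul, inv_mul_cancel, map_one, map_zero] at this)
  letI : MulAction H W :=
    { smul := fun h χ => ⟨fun x => χ.1 ⟨_, hcj h x⟩, by
        obtain ⟨v, h1, h2⟩ := χ.2
        exact ⟨ρ h v, hne h v h1, hv χ.1 v h2 h⟩⟩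
      one_smul := fun χ => Subtype.ext (funext fun x => congrArg χ.1 (Subtype.ext (by simp)))
      mul_smul := fun a b χ => Subtype.ext (funext fun x => congrArg χ.1 (Subtype.ext (by
        simp [mul_assoc]))) }
  have hli : LinearIndependent k fun χ : W => χ.2.choose :=
    a2_li (fun x : R => ρ x) _ (fun χ => χ.2.choose_spec.1) (fun χ : W => χ.1) Subtype.val_injective
      fun χ => χ.2.choose_spec.2
  have : Finite W := hli.finite
  have hW : Nat.card W ≤ finrank k V := by
    have := Fintype.ofFinite W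
    rw [Nat.card_eq_fintype_card]; exact hli.fintype_card_le_finrank
  by_cases hf : ∃ h, MulAction.toPermHom H W h ≠ 1
  · have h1 := a2_card hr π hπ hmin _ hf
    rw [Nat.card_perm] at h1
    by_contra hn
    have h2 : (Nat.card W).factorial ≤ (r - 1).factorial := Nat.factorial_le (by omega)
    have h3 : r.factorial = r * (r - 1).factorial := (Nat.mul_factorial_pred (by omega)).symm
    have h4 := (r - 1).factorial_pos
    nlinarith
  · exfalso
    push Not at hf
    obtain ⟨v, -, h1, h2⟩ := exists_common_eigenvector (k := k) (W := V) (Set.range fun x : R => ρ x)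
      ⊤ top_ne_bot (fun _ _ _ _ => trivial) (by
        rintro _ ⟨a, rfl⟩ _ ⟨b, rfl⟩ v -
        rw [← Module.End.mul_apply, ← Module.End.mul_apply, ← map_mul, ← map_mul, hc a a.2 b b.2])
    choose χ hχ using fun x : R => h2 _ ⟨x, rfl⟩
    have hfix : ∀ (h : H) (x : R), χ ⟨_, hcj h x⟩ = χ x := fun h x =>
      congrFun (congrArg Subtype.val (congrArg (fun e : Equiv.Perm W => e ⟨χ, v, h1, hχ⟩) (hf h))) x
    let U : Submodule k V :=
      { carrier := {w | ∀ x : R, ρ x w = χ x • w}
        add_mem' := fun ha hb x => by rw [map_add, ha x, hb x, smul_add]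
        zero_mem' := fun x => by simp
        smul_mem' := fun c w hw x => by rw [map_smul, hw x, smul_comm] }
    rcases hirr U (fun h w hw x => by rw [hv χ w hw h x, hfix]) with e | e
    · exact h1 (show v ∈ (⊥ : Submodule k V) from e ▸ hχ)
    · have hU : ∀ w (x : R), ρ x w = χ x • w := fun w => show w ∈ U from e ▸ trivial
      refine hnc fun x hx => mem_center_iff.mpr fun h => hρ (LinearMap.ext fun w => ?_)
      rw [map_mul, map_mul, Module.End.mul_apply, Module.End.mul_apply, hU _ ⟨x, hx⟩,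
        hU _ ⟨x, hx⟩, map_smul]

theorem a2_sq {R : Subgroup H} (h1 : ⁅R, R⁆ ≤ center H)
    (h2 : ∀ x ∈ R, (∀ y ∈ R, y * x = x * y) → x ∈ center H) :
    Nat.card (R.map (QuotientGroup.mk' (center H))) ≤ finrank k V * finrank k V := by
  have sc : ∀ z : H, ∃ c : k, z ∈ center H → ρ z = c • 1 := fun z => by
    by_cases hz : z ∈ center H
    · obtain ⟨c, hc⟩ := exists_scalar (k := k) (W := V) (Set.range ρ) ⊤ top_ne_bot
        (fun _ _ _ _ => trivial) (fun N _ hN => hirr N fun h => hN _ ⟨h, rfl⟩) (ρ z)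
        (fun _ _ => trivial) (by
          rintro _ ⟨a, rfl⟩ v -
          rw [← Module.End.mul_apply, ← Module.End.mul_apply, ← map_mul, ← map_mul,
            mem_center_iff.mp hz a])
      exact ⟨c, fun _ => LinearMap.ext fun v => hc v trivial⟩
    · exact ⟨0, fun h => absurd h hz⟩
  choose c hc using sc
  choose x hx hx' using fun e : R.map (QuotientGroup.mk' (center H)) => e.2
  have hz : ∀ (y : R) e, ⁅(y : H), x e⁆ ∈ center H := fun y e =>
    h1 (commutator_mem_commutator y.2 (hx e))
  have hli : LinearIndependent k fun e => (ρ (x e) : Module.End k V) := by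
    refine a2_li (fun y : R => LinearMap.mulLeftRight k (ρ y, ρ (y : H)⁻¹)) _ (fun e he => ?_)
      (fun e y => c ⁅(y : H), x e⁆) (fun e e' he => ?_) fun e y => ?_
    · have : (1 : Module.End k V) = 0 := by
        rw [← map_one ρ, ← mul_inv_cancel (x e), map_mul, he, zero_mul]
      exact one_ne_zero this
    · have h3 : ∀ y ∈ R, ⁅y, x e⁆ = ⁅y, x e'⁆ := fun y hy => hρ (by
        rw [hc _ (hz ⟨y, hy⟩ e), hc _ (hz ⟨y, hy⟩ e')]
        exact congrArg (· • (1 : Module.End k V)) (congrFun he ⟨y, hy⟩))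
      have h4 := h2 _ (mul_mem (inv_mem (hx e)) (hx e')) fun y hy => by
        have := h3 y hy
        rw [commutatorElement_def, commutatorElement_def] at this
        calc y * ((x e)⁻¹ * x e') = (y * x e * y⁻¹)⁻¹ * (y * x e' * y⁻¹ * (x e')⁻¹) * (x e' * y) := by
              group
          _ = _ := by rw [← this]; group
      refine Subtype.ext ?_
      rw [← hx' e, ← hx' e']
      exact QuotientGroup.eq.mpr h4
    · rw [LinearMap.mulLeftRight_apply, ← map_mul, ← map_mul, show (y : H) * x e * (y : H)⁻¹ =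
        ⁅(y : H), x e⁆ * x e by rw [commutatorElement_def]; group, map_mul, hc _ (hz y e),
        smul_mul_assoc, one_mul]
  have := Fintype.ofFinite (R.map (QuotientGroup.mk' (center H)))
  rw [Nat.card_eq_fintype_card, ← Module.finrank_linearMap k k V V]
  exact hli.fintype_card_le_finrank

omit hρ hirr in
theorem a2_rep {R : Subgroup H} [hR : R.Normal] (h1 : ⁅R, R⁆ ≤ center H) (hnc : ¬ R ≤ center H)
    (hm : ∀ N : Subgroup H, N.Normal → N < R → N ≤ center H) :
    ∃ (l : ℕ) (_ : Fact l.Prime) (d : ℕ) (σ : H →* Matrix (Fin d) (Fin d) (ZMod l)),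
      Nat.card (R.map (QuotientGroup.mk' (center H))) = l ^ d ∧ ∃ h, σ h ≠ 1 := by
  set f := QuotientGroup.mk' (center H) with hf
  have hk : ∀ x, f x = 1 ↔ x ∈ center H := fun x => QuotientGroup.eq_one_iff x
  have hcm : ∀ a ∈ R, ∀ b ∈ R, Commute (f a) (f b) := fun a ha b hb => by
    have := (hk _).mpr (h1 (commutator_mem_commutator ha hb))
    rw [map_commutatorElement] at this
    exact commutatorElement_eq_one_iff_commute.mp this
  have hE : (R.map f).Normal := hR.map f (QuotientGroup.mk'_surjective _)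
  have hne : Nat.card (R.map f) ≠ 1 := fun e => hnc fun x hx => (hk x).mp (by
    have := eq_bot_of_card_eq _ e
    exact (mem_bot).mp (this ▸ mem_map_of_mem f hx))
  obtain ⟨l, hl, hd⟩ := Nat.exists_prime_and_dvd hne
  have : Fact l.Prime := ⟨hl⟩
  obtain ⟨e, he⟩ := exists_prime_orderOf_dvd_card' l hd
  let N : Subgroup H :=
    { carrier := {x | x ∈ R ∧ f x ^ l = 1}
      one_mem' := ⟨one_mem _, by simp⟩
      mul_mem' := fun {a b} ha hb => ⟨mul_mem ha.1 hb.1, by
        rw [map_mul, (hcm a ha.1 b hb.1).mul_pow, ha.2, hb.2, one_mul]⟩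
      inv_mem' := fun {a} ha => ⟨inv_mem ha.1, by rw [map_inv, inv_pow, ha.2, inv_one]⟩ }
  have hN : N.Normal := ⟨fun a ha g => ⟨hR.conj_mem a ha.1 g, by
    rw [map_mul, map_mul, map_inv, conj_pow, ha.2, mul_one, mul_inv_cancel]⟩⟩
  have hNR : R ≤ N := by
    by_contra hn
    obtain ⟨x, hx, hx'⟩ := e.2
    have h2 : x ∈ N := ⟨hx, by
      rw [hx', ← he]; exact congrArg Subtype.val (pow_orderOf_eq_one e)⟩
    have h3 := (hk x).mpr (hm N hN (lt_of_le_of_ne (fun _ h => h.1) fun e => hn e.ge) h2)
    have : e = 1 := Subtype.ext (hx'.symm.trans h3)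
    rw [this, orderOf_one] at he
    exact hl.one_lt.ne he
  letI C : CommGroup (R.map f) := { (inferInstance : Group (R.map f)) with
    mul_comm := by
      rintro ⟨_, a, ha, rfl⟩ ⟨_, b, hb, rfl⟩
      exact Subtype.ext (hcm a ha b hb).eq }
  obtain ⟨d, σ, h2, h3⟩ := a2_mat (E := R.map f) (l := l) (by
    rintro ⟨_, a, ha, rfl⟩
    exact Subtype.ext (hNR ha).2) ((MulAut.conjNormal (H := R.map f)).comp f)
  refine ⟨l, inferInstance, d, σ, h2, ?_⟩
  by_contra hn
  push Not at hn
  refine hnc (a2_cent hr π hπ hmin (commutator_le.mpr fun x hx h _ => (hk _).mp ?_))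
  have h4 : f h * f x * (f h)⁻¹ = f x :=
    congrArg Subtype.val (h3 h (hn h) ⟨f x, mem_map_of_mem f hx⟩)
  rw [map_commutatorElement, commutatorElement_eq_one_iff_mul_comm]
  exact (mul_inv_eq_iff_eq_mul.mp h4).symm

end

theorem noncentral {k : Type} [Field k] [IsAlgClosed k] {V : Type} [AddCommGroup V] [Module k V]
    [FiniteDimensional k V] [Nontrivial V] {r : ℕ} (hr : 9 ≤ r) {H : Type u} [Group H] [Finite H]
    (π : H →* alternatingGroup (Fin r)) (hπ : Function.Surjective π)
    (hmin : ∀ L : Subgroup H, L.map π = ⊤ → L = ⊤) (ρ : Representation k H V)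
    (hρ : Function.Injective ρ)
    (hirr : ∀ W : Submodule k V, (∀ h, ∀ v ∈ W, ρ h v ∈ W) → W = ⊥ ∨ W = ⊤)
    (hnc : ¬ π.ker ≤ Subgroup.center H)
    (IH : ∀ (l : ℕ) [Fact l.Prime] (d : ℕ), d < Module.finrank k V →
      ∀ σ : Representation (AlgebraicClosure (ZMod l)) H (Fin d → AlgebraicClosure (ZMod l)),
      (∀ h, σ h = 1 → π h = 1) → bd l r ≤ d) : r - 1 ≤ Module.finrank k V := by
  obtain ⟨R, ⟨hR, hRK, hRc⟩, hRm⟩ := (wellFounded_lt (α := Subgroup H)).has_min
    {N | N.Normal ∧ N ≤ π.ker ∧ ¬ N ≤ center H} ⟨π.ker, inferInstance, le_rfl, hnc⟩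
  have hm : ∀ N : Subgroup H, N.Normal → N < R → N ≤ center H := fun N hN h => by
    by_contra hn
    exact hRm N ⟨hN, h.le.trans hRK, hn⟩ h
  by_cases hc : ∀ a ∈ R, ∀ b ∈ R, a * b = b * a
  · exact a2_ab hr π hπ hmin ρ hρ hirr hc hRc
  have h1 : ⁅R, R⁆ ≤ center H :=
    hm _ inferInstance (a2_lt hr π hπ hmin hRK fun e => hRc (e ▸ bot_le))
  have h2 : R ⊓ centralizer (R : Set H) ≤ center H :=
    hm _ inferInstance (lt_of_le_of_ne inf_le_left fun e => hc fun a ha b hb =>
      (show b ∈ R ⊓ centralizer (R : Set H) from e.symm ▸ hb).2 a ha)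
  have h3 := a2_sq hr π hπ hmin ρ hρ hirr h1 fun x hx h => h2 ⟨hx, h⟩
  obtain ⟨l, hl, d, σ, h4, h5⟩ := a2_rep hr π hπ hmin h1 hRc hm
  have h6 : ∃ h, σ.toHomUnits h ≠ 1 := by
    obtain ⟨h, hh⟩ := h5
    exact ⟨h, fun e => hh (congrArg Units.val e)⟩
  rw [h4] at h3
  by_cases hd : d < finrank k V
  · have := IH l d hd ((Matrix.toLinAlgEquiv' (R := AlgebraicClosure (ZMod l))).toMulEquiv.toMonoidHom.comp
      ((algebraMap (ZMod l) (AlgebraicClosure (ZMod l))).mapMatrix.toMonoidHom.comp σ)) fun h hh => by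
        refine a2_ker hr π hπ hmin _ h6 (Units.ext ?_)
        have e : (σ h).map (algebraMap (ZMod l) (AlgebraicClosure (ZMod l))) = 1 :=
          (Matrix.toLinAlgEquiv' (R := AlgebraicClosure (ZMod l))).injective
            (hh.trans (map_one _).symm)
        exact Matrix.map_injective (algebraMap (ZMod l) (AlgebraicClosure (ZMod l))).injective
          (e.trans (Matrix.map_one _ (map_zero _) (map_one _)).symm)
    unfold bd at this
    split_ifs at this <;> omega
  · exfalso
    have h7 : 2 ^ d ≤ l ^ d := Nat.pow_le_pow_left hl.out.two_le d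
    have h8 : finrank k V * finrank k V ≤ d * d := Nat.mul_le_mul (by omega) (by omega)
    have h9 : d ≤ 4 := by
      by_contra hn
      have : ∀ m, 5 ≤ m → m * m < 2 ^ m := fun m hm => by
        induction m, hm using Nat.le_induction with
        | base => norm_num
        | succ m hm ih => rw [pow_succ]; nlinarith
      have := this d (by omega)
      omega
    have h10 : l ^ d ≤ 16 := by nlinarith
    have h11 := a2_card hr π hπ hmin _ h6
    have h12 : Nat.card (Matrix (Fin d) (Fin d) (ZMod l))ˣ ≤ (l ^ d) ^ d := by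
      refine (Nat.card_le_card_of_injective _ Units.val_injective).trans (le_of_eq ?_)
      change Nat.card (Fin d → Fin d → ZMod l) = _
      simp [Nat.card_fun]
    have h13 : (l ^ d) ^ d ≤ 16 ^ 4 :=
      (Nat.pow_le_pow_left h10 d).trans (Nat.pow_le_pow_right (by norm_num) h9)
    have h14 : Nat.factorial 9 ≤ r.factorial := Nat.factorial_le hr
    norm_num [Nat.factorial] at h14 h13
    omega

end Cfsg.Agent.AltL
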