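import Mathlib
import Cfsg.Agent.AltL.A2

/-! The degree bound for alternating sections: reduction to perfect central extensions. -/

set_option autoImplicit false
set_option linter.unusedSectionVars false

namespace Cfsg.Agent.AltL
open Subgroup Module

universe u

theorem a3b_key (hc : TC.{u}) {r : ℕ} (hr : 9 ≤ r) (n : ℕ) : ∀ (p : ℕ) [Fact p.Prime] (k : Type)
    [Field k] [IsAlgClosed k] [CharP k p] (V : Type) [AddCommGroup V] [Module k V]
    [FiniteDimensional k V], finrank k V = n → ∀ (m : ℕ) (H : Type u) [Group H] [Finite H],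
    Nat.card H = m → ∀ π : H →* alternatingGroup (Fin r), Function.Surjective π →
    ∀ ρ : Representation k H V, (∀ h, ρ h = 1 → π h = 1) → bd p r ≤ n := by
  induction n using Nat.strong_induction_on with
  | _ n ihn =>
  intro p _ k _ _ _ V _ _ _ hn m
  induction m using Nat.strong_induction_on with
  | _ m ihm =>
  intro H _ _ hm π hπ ρ hk
  by_cases hmin : ∀ L : Subgroup H, L.map π = ⊤ → L = ⊤
  swap
  · push Not at hmin
    obtain ⟨L, h1, h2⟩ := hmin
    refine ihm _ (hm ▸ lt_of_le_of_ne (card_le_card_group L) fun e => h2 (eq_top_of_card_eq L e))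
      L rfl (π.comp L.subtype) (fun y => ?_) (ρ.comp L.subtype) fun h => hk h
    obtain ⟨x, hx, rfl⟩ : y ∈ L.map π := h1 ▸ mem_top y
    exact ⟨⟨x, hx⟩, rfl⟩
  by_cases hρ : MonoidHom.ker ρ = ⊥
  swap
  · have h1 := (MonoidHom.ker ρ).card_mul_index
    have h2 : 1 < Nat.card (MonoidHom.ker ρ) := (one_lt_card_iff_ne_bot _).mpr hρ
    have h3 : 0 < (MonoidHom.ker ρ).index := Nat.pos_of_ne_zero index_ne_zero_of_finite
    refine ihm _ (show (MonoidHom.ker ρ).index < m by nlinarith) (H ⧸ MonoidHom.ker ρ) rfl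
      (QuotientGroup.lift _ π fun h => hk h) (fun y => ?_) (QuotientGroup.lift _ ρ fun _ h => h) ?_
    · obtain ⟨x, rfl⟩ := hπ y
      exact ⟨x, rfl⟩
    · rintro ⟨h⟩
      exact hk h
  have hinj : Function.Injective ρ := fun a b e => by
    have : a⁻¹ * b ∈ MonoidHom.ker ρ := by
      rw [MonoidHom.mem_ker, map_mul, ← e, ← map_mul, inv_mul_cancel, map_one]
    rw [hρ, mem_bot] at this
    exact inv_mul_eq_one.mp this
  have hp : _root_.commutator H = ⊤ := hmin _ (by
    rw [_root_.commutator_def, map_commutator, ← MonoidHom.range_eq_map,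
      MonoidHom.range_eq_top.mpr hπ]
    exact commutator_alternatingGroup_eq_top (by simp; omega))
  have : IsSimpleGroup (alternatingGroup (Fin r)) := alternatingGroup.isSimpleGroup (by simp; omega)
  have hnt : ∃ g, ρ g ≠ 1 := by
    obtain ⟨y, hy⟩ := exists_ne (1 : alternatingGroup (Fin r))
    obtain ⟨x, rfl⟩ := hπ y
    exact ⟨x, fun e => hy (hk x e)⟩
  have : Nontrivial V := by
    by_contra h
    rw [not_nontrivial_iff_subsingleton] at h
    obtain ⟨g, hg⟩ := hnt
    exact hg (LinearMap.ext fun _ => Subsingleton.elim _ _)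
  by_cases hirr : ∀ W : Submodule k V, (∀ h, ∀ v ∈ W, ρ h v ∈ W) → W = ⊥ ∨ W = ⊤
  swap
  · push Not at hirr
    obtain ⟨W, h1, h2, h3⟩ := hirr
    have h4 : ∀ g, W ≤ W.comap (ρ g) := fun g v hv => h1 g v hv
    have h5 := W.finrank_quotient_add_finrank
    have h6 : 0 < finrank k W := Nat.pos_of_ne_zero fun e => h2 (Submodule.finrank_eq_zero.mp e)
    have h7 : finrank k W < finrank k V := Submodule.finrank_lt h3
    rcases a2_normal hr π hπ hmin (MonoidHom.ker (ρ.subrepresentation W h4)) inferInstance with e | e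
    · exact (ihn _ (hn ▸ h7) p k W rfl _ H rfl π hπ _ fun h hh => e hh).trans (by omega)
    rcases a2_normal hr π hπ hmin (MonoidHom.ker (ρ.quotient W h4)) inferInstance with e' | e'
    · exact (ihn _ (show finrank k (V ⧸ W) < n by omega) p k _ rfl _ H rfl π hπ _
        fun h hh => e' hh).trans (by omega)
    exfalso
    have f1 : ∀ g, ∀ w ∈ W, ρ g w = w := fun g w hw => congrArg Subtype.val
      (LinearMap.congr_fun (show g ∈ MonoidHom.ker (ρ.subrepresentation W h4) from e ▸ mem_top g)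
        ⟨w, hw⟩)
    have f2 : ∀ g v, ρ g v - v ∈ W := fun g v => (Submodule.Quotient.eq W).mp
      (LinearMap.congr_fun (show g ∈ MonoidHom.ker (ρ.quotient W h4) from e' ▸ mem_top g)
        (Submodule.Quotient.mk v))
    have f3 : ∀ a b : H, a * b = b * a := fun a b => hinj (LinearMap.ext fun v => by
      have g1 := f1 a _ (f2 b v)
      have g2 := f1 b _ (f2 a v)
      rw [map_sub] at g1 g2
      rw [map_mul, map_mul, Module.End.mul_apply, Module.End.mul_apply,
        sub_eq_iff_eq_add.mp g1, sub_eq_iff_eq_add.mp g2]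
      abel)
    obtain ⟨g, hg⟩ := hnt
    have : _root_.commutator H ≤ ⊥ := commutator_le.mpr fun a _ b _ =>
      mem_bot.mpr (commutatorElement_eq_one_iff_mul_comm.mpr (f3 a b))
    rw [hp] at this
    exact hg (by rw [mem_bot.mp (this (mem_top g)), map_one])
  by_cases hcen : π.ker ≤ center H
  · exact hn ▸ hc k p V r hr H π hπ hcen ⟨hp⟩ ρ hnt
  · have := noncentral hr π hπ hmin ρ hinj hirr hcen fun l _ d hd σ hσ =>
      ihn d (hn ▸ hd) l _ _ (by simp) _ H rfl π hπ σ hσ
    unfold bd
    omega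

theorem mainb (hc : TC.{u}) {F : Type u} [Field F] [Fintype F] (p : ℕ) [Fact p.Prime] [CharP F p]
    (n : ℕ) (r : ℕ) (H : Subgroup (GL (Fin n) F)) (K : Subgroup ↥H) [K.Normal]
    (h : Nonempty (↥H ⧸ K ≃* ↥(alternatingGroup (Fin r)))) (hr : 9 ≤ r) :
    r - 1 - (if p ∣ r then 1 else 0) ≤ n := by
  obtain ⟨e⟩ := h
  letI := ZMod.algebra F p
  let ι : F →+* AlgebraicClosure (ZMod p) :=
    (IsAlgClosed.lift : F →ₐ[ZMod p] AlgebraicClosure (ZMod p)).toRingHom
  refine a3b_key hc hr n p (AlgebraicClosure (ZMod p)) (Fin n → AlgebraicClosure (ZMod p)) (by simp)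
    _ H rfl (e.toMonoidHom.comp (QuotientGroup.mk' K))
    (e.surjective.comp (QuotientGroup.mk'_surjective K))
    ((Matrix.toLinAlgEquiv' (R := AlgebraicClosure (ZMod p))).toMulEquiv.toMonoidHom.comp
      (ι.mapMatrix.toMonoidHom.comp ((Units.coeHom _).comp H.subtype))) fun g hg => ?_
  have e1 : (g.1 : Matrix (Fin n) (Fin n) F).map ι = 1 :=
    (Matrix.toLinAlgEquiv' (R := AlgebraicClosure (ZMod p))).injective (hg.trans (map_one _).symm)
  have e2 : g = 1 := Subtype.ext (Units.ext (Matrix.map_injective ι.injective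
    (e1.trans (Matrix.map_one _ (map_zero _) (map_one _)).symm)))
  rw [e2, map_one]

end Cfsg.Agent.AltL
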