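import Mathlib
import Cfsg.Agent.AltL.Def
import Cfsg.Agent.S0714

/-!
A cocycle of vectors indexed by pairs of points gives a map from the permutation module.
-/

set_option autoImplicit false

namespace Cfsg.Agent.AltL

open Equiv Module

variable {α : Type} [Fintype α] [DecidableEq α] {k : Type} [Field k] {V : Type} [AddCommGroup V] [Module k V]

theorem b_ex (S : Finset α) (h : S.card + 1 ≤ Fintype.card α) : ∃ a, a ∉ S := by
  by_contra! h1
  have := Finset.card_le_card (fun a _ => h1 a : (Finset.univ : Finset α) ⊆ S)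
  rw [Finset.card_univ] at this
  omega

theorem b_ex2 (S : Finset α) (h : S.card + 2 ≤ Fintype.card α) : ∃ a b, a ∉ S ∧ b ∉ S ∧ a ≠ b := by
  obtain ⟨a, ha⟩ := b_ex S (by omega)
  obtain ⟨b, hb⟩ := b_ex (insert a S) (by rw [Finset.card_insert_of_notMem ha]; omega)
  rw [Finset.mem_insert, not_or] at hb
  exact ⟨a, b, ha, hb.2, fun e => hb.1 e.symm⟩

theorem b_tr (h : 4 ≤ Fintype.card α) {x y x' y' : α} (h1 : x ≠ y) (h2 : x' ≠ y') :
    ∃ g : alternatingGroup α, g.1 x = x' ∧ g.1 y = y' := by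
  obtain ⟨σ, hσ⟩ := Equiv.Perm.exists_extending_pair (f := ![x, y]) (g := ![x', y'])
    (fun i j e => by fin_cases i <;> fin_cases j <;> simp_all [eq_comm])
    (fun i j e => by fin_cases i <;> fin_cases j <;> simp_all [eq_comm])
  have hx : σ x = x' := hσ 0
  have hy : σ y = y' := hσ 1
  rcases Int.units_eq_one_or (Perm.sign σ) with e | e
  · exact ⟨⟨σ, e⟩, hx, hy⟩
  · obtain ⟨a, b, ha, hb, hab⟩ := b_ex2 ({x, y} : Finset α) (by
      have := Finset.card_le_two (a := x) (b := y); omega)
    simp only [Finset.mem_insert, Finset.mem_singleton, not_or] at ha hb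
    refine ⟨⟨σ * swap a b, by simp [Perm.mem_alternatingGroup, e, hab]⟩, ?_, ?_⟩
    · simp [swap_apply_of_ne_of_ne (Ne.symm ha.1) (Ne.symm hb.1), hx]
    · simp [swap_apply_of_ne_of_ne (Ne.symm ha.2) (Ne.symm hb.2), hy]

theorem b_coc [FiniteDimensional k V] (p : ℕ) [CharP k p] (h5 : 5 ≤ Fintype.card α)
    (ρ : Representation k (alternatingGroup α) V) (Z : α → α → V)
    (he : ∀ (g : alternatingGroup α) x y, ρ g (Z x y) = Z (g.1 x) (g.1 y))
    (hc : ∀ x y a, Z x y + Z y a = Z x a) {o a : α} (hn : Z o a ≠ 0) :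
    bd p (Fintype.card α) ≤ finrank k V := by
  have h0 : Z o o = 0 := by simpa using hc o o o
  let φ : (α → k) →ₗ[k] V := ∑ b, (LinearMap.proj b).smulRight (Z o b)
  have hφ : ∀ f, φ f = ∑ b, f b • Z o b := fun f => by simp [φ]
  let s : (α → k) →ₗ[k] k := ∑ b, LinearMap.proj b
  have hs : ∀ f, s f = ∑ b, f b := fun f => by simp [s]
  have hm : ∀ f, f ∈ LinearMap.ker (φ.prod s) ↔ φ f = 0 ∧ s f = 0 := fun f => by
    rw [LinearMap.ker_prod, Submodule.mem_inf, LinearMap.mem_ker, LinearMap.mem_ker]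
  let N : Subrepresentation (Cfsg.permRep k (alternatingGroup α) α) :=
    ⟨LinearMap.ker (φ.prod s), fun g f hf => by
      simp only [hm, hφ, hs] at hf ⊢
      have e1 : ∀ b, (Cfsg.permRep k (alternatingGroup α) α g f) (g.1 b) = f b := fun b => by
        change f (g⁻¹ • g • b) = f b
        rw [inv_smul_smul]
      constructor
      · rw [← Equiv.sum_comp g.1]
        simp only [e1]
        have e2 : ∀ b, f b • Z o (g.1 b) = f b • Z o (g.1 o) + ρ g (f b • Z o b) := fun b => by
          rw [map_smul, he, ← smul_add, hc]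
        simp only [e2]
        rw [Finset.sum_add_distrib, ← Finset.sum_smul, ← map_sum, hf.1, hf.2]
        simp
      · rw [← Equiv.sum_comp g.1]
        simp only [e1]
        exact hf.2⟩
  have h1 := (φ.prod s).finrank_range_add_finrank_ker
  have h2 := (LinearMap.range (φ.prod s)).finrank_le
  rw [finrank_prod, finrank_self] at h2
  rw [finrank_fintype_fun_eq_card] at h1
  have hN : N.toSubmodule = LinearMap.ker (φ.prod s) := rfl
  have h3 : (Pi.single a 1 - Pi.single o 1 : α → k) ∉ N.toSubmodule := fun h => by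
    rw [hN, hm, map_sub] at h
    have := h.1
    simp [hφ, Pi.single_apply, h0] at this
    exact hn this
  unfold bd
  rcases S0714.result h5 N with h | h | h | h
  · rw [← hN, h, finrank_bot] at h1
    omega
  · have h4 : finrank k N.toSubmodule ≤ 1 := by
      rw [h]
      exact (finrank_span_le_card ({fun _ => (1 : k)} : Set (α → k))).trans (by simp)
    have h5 : (fun _ => (1 : k)) ∈ N.toSubmodule := by
      rw [h]; exact Submodule.subset_span rfl
    rw [hN] at h5 h4
    rw [hm, hs] at h5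
    have h6 : p ∣ Fintype.card α := (CharP.cast_eq_zero_iff k p _).1 (by simpa using h5.2)
    rw [if_pos h6]
    omega
  · refine absurd ?_ h3
    rw [h]
    change ∑ x, (Pi.single a 1 - Pi.single o 1 : α → k) x = 0
    simp [Finset.sum_sub_distrib]
  · exact absurd (h ▸ Submodule.mem_top) h3

theorem b_fin [FiniteDimensional k V] (p : ℕ) [CharP k p] (h9 : 9 ≤ Fintype.card α)
    (ρ : Representation k (alternatingGroup α) V) (Z : α → α → V)
    (he : ∀ (g : alternatingGroup α) x y, x ≠ y → ρ g (Z x y) = Z (g.1 x) (g.1 y))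
    (ha : ∀ x y, x ≠ y → Z y x = - Z x y)
    (hr : ∀ x y a b, x ≠ y → a ≠ x → a ≠ y → b ≠ x → b ≠ y → Z y a - Z x a = Z y b - Z x b)
    {i j : α} (hij : i ≠ j) (hn : ∃ g, ρ g (Z i j) ≠ Z i j) :
    bd p (Fintype.card α) ≤ finrank k V := by
  let T : α → α → α → V := fun x y a => Z x y + Z y a + Z a x
  have t1 : ∀ x y a, T x y a = T y a x := fun x y a => by simp only [T]; abel
  have t2 : ∀ x y a b, x ≠ y → a ≠ x → a ≠ y → b ≠ x → b ≠ y → T x y a = T x y b :=
    fun x y a b h1 h2 h3 h4 h5 => by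
      simp only [T]
      rw [ha x a h2.symm, ha x b h4.symm, add_assoc, add_assoc, ← sub_eq_add_neg, ← sub_eq_add_neg,
        hr x y a b h1 h2 h3 h4 h5]
  have t3 : ∀ x y a x' y' a', x ≠ y → a ≠ x → a ≠ y → x' ≠ y' → a' ≠ x' → a' ≠ y' →
      T x y a = T x' y' a' := by
    intro x y a x' y' a' h1 h2 h3 h4 h5 h6
    have hS : ({x, y, a, x', y', a'} : Finset α).card ≤ 6 := Finset.card_le_six
    obtain ⟨e, he⟩ := b_ex ({x, y, a, x', y', a'} : Finset α) (by omega)
    obtain ⟨f, g, hf, hg, hfg⟩ := b_ex2 (insert e ({x, y, a, x', y', a'} : Finset α)) (by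
      rw [Finset.card_insert_of_notMem he]; omega)
    simp only [Finset.mem_insert, Finset.mem_singleton, not_or] at he hf hg
    have key : ∀ x y a, x ≠ y → a ≠ x → a ≠ y → e ≠ x → e ≠ y → f ≠ y → T x y a = T e f g :=
      fun x y a h1 h2 h3 e1 e2 f2 => by
        rw [t2 x y a e h1 h2 h3 e1 e2, t1, t2 y e x f e2.symm h1 e1.symm f2 hf.1, t1,
          t2 e f y g (Ne.symm hf.1) e2.symm f2.symm hg.1 hfg.symm]
    rw [key x y a h1 h2 h3 he.1 he.2.1 hf.2.2.1, key x' y' a' h4 h5 h6 he.2.2.2.1 he.2.2.2.2.1 hf.2.2.2.2.2.1]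
  obtain ⟨c, hc⟩ := b_ex ({i, j} : Finset α) (by have := Finset.card_le_two (a := i) (b := j); omega)
  simp only [Finset.mem_insert, Finset.mem_singleton, not_or] at hc
  have t4 : ∀ g : alternatingGroup α, ρ g (T i j c) = T i j c := fun g => by
    refine Eq.trans ?_ (t3 (g.1 i) (g.1 j) (g.1 c) i j c (g.1.injective.ne hij) (g.1.injective.ne hc.1)
      (g.1.injective.ne hc.2) hij hc.1 hc.2)
    simp only [T, map_add]
    rw [he g i j hij, he g j c (Ne.symm hc.2), he g c i hc.1]
  have t5 : T i j c + T i j c = 0 := by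
    nth_rw 1 [t3 i j c j i c hij hc.1 hc.2 hij.symm hc.2 hc.1]
    simp only [T]
    rw [ha i j hij, ha c i hc.1, ha j c (Ne.symm hc.2)]
    abel
  refine b_coc p (by omega) ρ (fun x y => if x = y then 0 else Z x y - T i j c) ?_ ?_ (o := i) (a := j) ?_
  · intro g x y
    by_cases h : x = y
    · simp [h]
    · rw [if_neg h, if_neg (g.1.injective.ne h), map_sub, he g x y h, t4]
  · intro x y a
    by_cases h1 : x = y
    · simp [h1]
    by_cases h2 : y = a
    · simp [h2]
    by_cases h3 : x = a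
    · subst h3
      rw [if_neg h1, if_neg h2, if_pos rfl, ha x y h1, ← neg_eq_zero, ← t5]
      abel
    · rw [if_neg h1, if_neg h2, if_neg h3]
      have := t3 x y a i j c h1 (Ne.symm h3) (Ne.symm h2) hij hc.1 hc.2
      rw [← this]
      simp only [T]
      rw [ha x a h3]
      abel
  · rw [if_neg hij, sub_ne_zero]
    intro e
    obtain ⟨g, hg⟩ := hn
    exact hg (by rw [e, t4])

end Cfsg.Agent.AltL
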