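import Mathlib
import Cfsg.Agent.AltL.B1

/-!
The bound when disjoint `3`-cycles have vanishing double commutator.
-/

set_option autoImplicit false

namespace Cfsg.Agent.AltL

open Equiv Module

variable {α : Type} [Fintype α] [DecidableEq α] {k : Type} [Field k] {V : Type} [AddCommGroup V] [Module k V]
  {ρ : Representation k (alternatingGroup α) V}

/-- fixed by the pointwise stabiliser -/
def Fx (ρ : Representation k (alternatingGroup α) V) (S : Finset α) (v : V) : Prop :=
  ∀ g : alternatingGroup α, (∀ a ∈ S, g.1 a = a) → ρ g v = v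

/-- the hypothesis -/
def Hy (ρ : Representation k (alternatingGroup α) V) : Prop :=
  ∀ u v : alternatingGroup α, u.1.IsThreeCycle → v.1.IsThreeCycle → u.1.Disjoint v.1 → (ρ u - 1) * (ρ v - 1) = 0

/-- a double transposition -/
def dt (i j a b : α) (h : i ≠ j) (h' : a ≠ b) : alternatingGroup α :=
  ⟨swap i j * swap a b, by simp [Perm.mem_alternatingGroup, h, h']⟩

theorem b_mul (g h : alternatingGroup α) (v : V) : ρ (g * h) v = ρ g (ρ h v) := by
  rw [map_mul]; rfl

theorem fx_of3 {S : Finset α} {v : V}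
    (h : ∀ s : alternatingGroup α, s.1.IsThreeCycle → (∀ a ∈ S, s.1 a = a) → ρ s v = v) : Fx ρ S v := by
  intro g hg
  let St : Subgroup (alternatingGroup α) :=
    { carrier := {g | ρ g v = v}
      mul_mem' := fun {a b} ha hb => by
        change ρ (a * b) v = v
        rw [b_mul, show ρ b v = v from hb]; exact ha
      one_mem' := by simp
      inv_mem' := fun {a} ha => by
        change ρ a⁻¹ v = v
        nth_rw 1 [← show ρ a v = v from ha]
        rw [← b_mul, inv_mul_cancel, map_one]; rfl }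
  have h1 : ∀ x, g.1 x ∉ S ↔ x ∉ S := fun x => not_congr ⟨fun hx => by
    rwa [← g.1.injective (hg _ hx)], fun hx => by rwa [hg x hx]⟩
  have h2 : Perm.ofSubtype (g.1.subtypePerm (p := fun x => x ∉ S) h1) = g.1 :=
    Perm.ofSubtype_subtypePerm h1 fun x hx hS => hx (hg x hS)
  have h3 : g.1.subtypePerm (p := fun x => x ∉ S) h1 ∈ alternatingGroup {x // x ∉ S} := by
    rw [Perm.mem_alternatingGroup, ← Perm.sign_ofSubtype, h2]; exact g.2
  rw [← Perm.closure_three_cycles_eq_alternating] at h3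
  have h4 : Subgroup.closure {σ : Perm {x // x ∉ S} | σ.IsThreeCycle} ≤
      (St.map (alternatingGroup α).subtype).comap Perm.ofSubtype := by
    refine (Subgroup.closure_le _).2 fun σ hσ => ?_
    have h5 : (Perm.ofSubtype σ).IsThreeCycle := (Perm.cycleType_ofSubtype).trans hσ
    exact ⟨⟨_, h5.mem_alternatingGroup⟩, h _ h5 fun a ha =>
      Perm.ofSubtype_apply_of_not_mem σ (not_not.2 ha), rfl⟩
  obtain ⟨g', hg', e⟩ := h4 h3
  rw [h2] at e
  rw [← Subtype.ext (p := fun x => x ∈ alternatingGroup α) e]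
  exact hg'

theorem tc_fx (H : Hy ρ) {S : Finset α} {u : alternatingGroup α} (hu : u.1.IsThreeCycle)
    (hS : ∀ x, x ∉ S → u.1 x = x) (w : V) : Fx ρ S (ρ u w - w) := fx_of3 fun s hs h => by
  have h1 := LinearMap.congr_fun (H s u hs hu fun x => by
    by_cases hx : x ∈ S
    · exact Or.inl (h x hx)
    · exact Or.inr (hS x hx)) w
  rwa [Module.End.mul_apply, LinearMap.sub_apply, LinearMap.sub_apply, LinearMap.zero_apply, sub_eq_zero] at h1

theorem dt_fx (H : Hy ρ) {i j a b : α} (hij : i ≠ j) (hab : a ≠ b) (h1 : a ≠ i) (h2 : a ≠ j) (h3 : b ≠ i)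
    (w : V) : Fx ρ {i, j, a, b} (ρ (dt i j a b hij hab) w - w) := by
  have c1 := Perm.isThreeCycle_swap_mul_swap_same hij h1.symm h2.symm
  have c2 := Perm.isThreeCycle_swap_mul_swap_same h1 hab h3.symm
  have e : dt i j a b hij hab = ⟨_, c1.mem_alternatingGroup⟩ * ⟨_, c2.mem_alternatingGroup⟩ := by
    refine Subtype.ext ?_
    change _ = swap i j * swap i a * (swap a i * swap a b)
    rw [swap_comm a i, mul_assoc, swap_mul_self_mul]; rfl
  intro g hg
  have f1 := tc_fx H (S := {i, j, a, b}) (u := ⟨_, c1.mem_alternatingGroup⟩) c1 (fun x hx => by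
    simp only [Finset.mem_insert, Finset.mem_singleton, not_or] at hx
    simp [swap_apply_of_ne_of_ne, hx]) (ρ ⟨_, c2.mem_alternatingGroup⟩ w) g hg
  have f2 := tc_fx H (S := {i, j, a, b}) (u := ⟨_, c2.mem_alternatingGroup⟩) c2 (fun x hx => by
    simp only [Finset.mem_insert, Finset.mem_singleton, not_or] at hx
    simp [swap_apply_of_ne_of_ne, hx]) w g hg
  rw [e, b_mul, ← sub_add_sub_cancel _ (ρ ⟨_, c2.mem_alternatingGroup⟩ w), map_add, f1, f2]

theorem b_core (H : Hy ρ) (h9 : 9 ≤ Fintype.card α) {S : Finset α} (hS : S.card ≤ 4) {i j a b : α}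
    (hij : i ≠ j) (hab : a ≠ b) (hi : i ∈ S) (hj : j ∈ S) (ha : a ∉ S) (hb : b ∉ S) {w : V} (hw : Fx ρ S w) :
    Fx ρ {i, j} (ρ (dt i j a b hij hab) w - w) := fx_of3 fun s hs h => by
  obtain ⟨c, d, hc, hd, hcd⟩ := b_ex2 (S ∪ s.1.support) (by
    have := Finset.card_union_le S s.1.support
    rw [hs.card_support] at this
    omega)
  rw [Finset.mem_union, not_or, Perm.notMem_support] at hc hd
  have e : dt i j a b hij hab = dt i j c d hij hcd * dt c d a b hcd hab := by
    refine Subtype.ext ?_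
    change _ = swap i j * swap c d * (swap c d * swap a b)
    rw [mul_assoc, swap_mul_self_mul]; rfl
  rw [e, b_mul, hw (dt c d a b hcd hab) fun x hx => by
    have h1 : x ≠ a := fun e => ha (e ▸ hx)
    have h2 : x ≠ b := fun e => hb (e ▸ hx)
    have h3 : x ≠ c := fun e => hc.1 (e ▸ hx)
    have h4 : x ≠ d := fun e => hd.1 (e ▸ hx)
    simp [dt, swap_apply_of_ne_of_ne, h1, h2, h3, h4]]
  refine dt_fx H hij hcd (fun e => hc.1 (e ▸ hi)) (fun e => hc.1 (e ▸ hj)) (fun e => hd.1 (e ▸ hi)) w s ?_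
  intro x hx
  simp only [Finset.mem_insert, Finset.mem_singleton] at hx
  rcases hx with rfl | rfl | rfl | rfl
  · exact h _ (by simp)
  · exact h _ (by simp)
  · exact hc.2
  · exact hd.2

theorem dt_sq {i j a b : α} (hij : i ≠ j) (hab : a ≠ b) (h1 : a ≠ i) (h2 : a ≠ j) (h3 : b ≠ i) (h4 : b ≠ j) :
    dt i j a b hij hab * dt i j a b hij hab = 1 := by
  refine Subtype.ext (Equiv.ext fun x => ?_)
  simp only [dt, Subgroup.coe_mul, Perm.mul_apply, swap_apply_def, Subgroup.coe_one, Perm.one_apply]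
  split_ifs <;> simp_all

theorem b_main [FiniteDimensional k V] (p : ℕ) [CharP k p] (H : Hy ρ) (h9 : 9 ≤ Fintype.card α)
    {S : Finset α} (hS : S.card ≤ 4) {i j a b : α}
    (hij : i ≠ j) (hab : a ≠ b) (hi : i ∈ S) (hj : j ∈ S) (ha : a ∉ S) (hb : b ∉ S) {w : V} (hw : Fx ρ S w)
    (hn : ∃ g, ρ g (ρ (dt i j a b hij hab) w - w) ≠ ρ (dt i j a b hij hab) w - w) :
    bd p (Fintype.card α) ≤ finrank k V := by
  have hz := b_core H h9 hS hij hab hi hj ha hb hw
  have hai : a ≠ i := fun e => ha (e ▸ hi)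
  have haj : a ≠ j := fun e => ha (e ▸ hj)
  have hbi : b ≠ i := fun e => hb (e ▸ hi)
  have hbj : b ≠ j := fun e => hb (e ▸ hj)
  have hτ : ρ (dt i j a b hij hab) (ρ (dt i j a b hij hab) w - w) = - (ρ (dt i j a b hij hab) w - w) := by
    rw [map_sub, ← b_mul, dt_sq hij hab hai haj hbi hbj, map_one, neg_sub]; rfl
  generalize ρ (dt i j a b hij hab) w - w = z at hz hτ hn
  choose γ h1 h2 using fun x y (h : x ≠ y) => b_tr (α := α) (by omega) hij h
  let Z : α → α → V := fun x y => if h : x ≠ y then ρ (γ x y h) z else 0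
  have key : ∀ g : alternatingGroup α, ρ g z = Z (g.1 i) (g.1 j) := fun g => by
    have h := g.1.injective.ne hij
    simp only [Z]
    rw [dif_pos h]
    have := hz ((γ _ _ h)⁻¹ * g) fun x hx => by
      simp only [Finset.mem_insert, Finset.mem_singleton] at hx
      rw [Subgroup.coe_mul, Subgroup.coe_inv, Perm.mul_apply, Perm.inv_eq_iff_eq]
      rcases hx with rfl | rfl
      · exact (h1 _ _ h).symm
      · exact (h2 _ _ h).symm
    conv_rhs => rw [← this, ← b_mul, mul_inv_cancel_left]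
  have he : ∀ (g : alternatingGroup α) x y, x ≠ y → ρ g (Z x y) = Z (g.1 x) (g.1 y) := fun g x y h => by
    have := key (g * γ x y h)
    rw [b_mul, Subgroup.coe_mul, Perm.mul_apply, Perm.mul_apply, h1, h2] at this
    rw [← this]
    simp only [Z]
    rw [dif_pos h]
  have z0 : Z i j = z := by simpa using (key 1).symm
  refine b_fin p h9 ρ Z he (fun x y h => ?_) (fun x y c d h h3 h4 h5 h6 => ?_) hij (z0 ▸ hn)
  · have e1 := key (γ x y h * dt i j a b hij hab)
    rw [b_mul, hτ, map_neg, key, h1, h2, Subgroup.coe_mul, Perm.mul_apply, Perm.mul_apply] at e1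
    have e2 : (dt i j a b hij hab).1 i = j := by simp [dt, swap_apply_of_ne_of_ne hai.symm hbi.symm]
    have e3 : (dt i j a b hij hab).1 j = i := by simp [dt, swap_apply_of_ne_of_ne haj.symm hbj.symm]
    rw [e2, e3, h1, h2] at e1
    exact e1.symm
  · by_cases hcd : c = d
    · rw [hcd]
    have hS4 : ({x, y, c, d} : Finset α).card ≤ 4 := Finset.card_le_four
    obtain ⟨m, hm⟩ := b_ex ({x, y, c, d} : Finset α) (by omega)
    obtain ⟨e, f, he', hf, hef⟩ := b_ex2 (insert m ({x, y, c, d} : Finset α)) (by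
      rw [Finset.card_insert_of_notMem hm]; omega)
    simp only [Finset.mem_insert, Finset.mem_singleton, not_or] at hm he' hf
    have f1 := dt_fx H h hef he'.2.1 he'.2.2.1 hf.2.1 (Z x c)
    have c1 := Perm.isThreeCycle_swap_mul_swap_same (a := c) (b := m) (c := d) (Ne.symm hm.2.2.1) hcd hm.2.2.2
    have g1 : ∀ t, t ≠ c → t ≠ d → t ≠ m → (swap c m * swap c d) t = t := fun t a1 a2 a3 => by
      simp [swap_apply_of_ne_of_ne, a1, a2, a3]
    have gx := g1 x h3.symm h5.symm (Ne.symm hm.1)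
    have gy := g1 y h4.symm h6.symm (Ne.symm hm.2.1)
    have gc : (swap c m * swap c d) c = d := by
      simp [swap_apply_of_ne_of_ne (Ne.symm hcd) (Ne.symm hm.2.2.2)]
    have f2 := f1 ⟨_, c1.mem_alternatingGroup⟩ fun t ht => by
      simp only [Finset.mem_insert, Finset.mem_singleton] at ht
      rcases ht with rfl | rfl | rfl | rfl
      · exact gx
      · exact gy
      · exact g1 _ he'.2.2.2.1 he'.2.2.2.2 he'.1
      · exact g1 _ hf.2.2.2.1 hf.2.2.2.2 hf.1
    have e2 : (dt x y e f h hef).1 x = y := by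
      simp [dt, swap_apply_of_ne_of_ne (Ne.symm he'.2.1) (Ne.symm hf.2.1)]
    have e3 : (dt x y e f h hef).1 c = c := by
      simp [dt, swap_apply_of_ne_of_ne (Ne.symm he'.2.2.2.1) (Ne.symm hf.2.2.2.1), swap_apply_of_ne_of_ne h3 h4]
    rw [he _ x c h3.symm, e2, e3, map_sub, he _ y c h4.symm, he _ x c h3.symm] at f2
    simp only [gx, gy, gc] at f2
    exact f2.symm

end Cfsg.Agent.AltL
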