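import Mathlib
import Cfsg.Agent.AltL.B2

/-!
The bound when disjoint `3`-cycles have vanishing double commutator: conclusion.
-/

set_option autoImplicit false

namespace Cfsg.Agent.AltL

open Equiv Module

variable {α : Type} [Fintype α] [DecidableEq α] {k : Type} [Field k] {V : Type} [AddCommGroup V] [Module k V]
  {ρ : Representation k (alternatingGroup α) V}

theorem b_triv (h9 : 9 ≤ Fintype.card α) {u : alternatingGroup α} (h1 : u ≠ 1) (hu : ∀ v, ρ u v = v)
    (g : alternatingGroup α) : ρ g = 1 := by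
  have hs := alternatingGroup.isSimpleGroup (α := α) (by rw [Nat.card_eq_fintype_card]; omega)
  rcases hs.eq_bot_or_eq_top_of_normal ρ.toHomUnits.ker inferInstance with h | h
  · refine absurd (Subgroup.mem_bot.1 (h ▸ (show u ∈ ρ.toHomUnits.ker from ?_))) h1
    exact Units.ext (LinearMap.ext hu)
  · exact congrArg Units.val (show ρ.toHomUnits g = 1 from (h ▸ Subgroup.mem_top g : g ∈ ρ.toHomUnits.ker))

theorem b_all [FiniteDimensional k V] (p : ℕ) [CharP k p] (H : Hy ρ) (h9 : 9 ≤ Fintype.card α)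
    (hn : ∃ g, ρ g ≠ 1) : bd p (Fintype.card α) ≤ finrank k V := by
  by_contra hb
  obtain ⟨g0, hg0⟩ := hn
  obtain ⟨i, j, -, -, hij⟩ := b_ex2 (∅ : Finset α) (by simp; omega)
  obtain ⟨l, m, hl, hm, hlm⟩ := b_ex2 ({i, j} : Finset α) (by
    have := Finset.card_le_two (a := i) (b := j); omega)
  have hS4 : ({i, j, l, m} : Finset α).card ≤ 4 := Finset.card_le_four
  obtain ⟨a, b, ha, hb', hab⟩ := b_ex2 ({i, j, l, m} : Finset α) (by omega)
  have key : ∀ {x y : α} (hxy : x ≠ y), x ∈ ({i, j, l, m} : Finset α) → y ∈ ({i, j, l, m} : Finset α) →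
      ∀ w, Fx ρ {i, j, l, m} w → ∀ g, ρ g (ρ (dt x y a b hxy hab) w - w) = ρ (dt x y a b hxy hab) w - w :=
    fun hxy hx hy w hw g => by
      by_contra h
      exact hb (b_main p H h9 hS4 hxy hab hx hy ha hb' hw ⟨g, h⟩)
  have key2 : ∀ {x y x' y' : α} (hxy : x ≠ y) (hxy' : x' ≠ y'), x ∈ ({i, j, l, m} : Finset α) →
      y ∈ ({i, j, l, m} : Finset α) → x' ∈ ({i, j, l, m} : Finset α) → y' ∈ ({i, j, l, m} : Finset α) →
      ∀ u : alternatingGroup α, u.1 = swap x y * swap x' y' →
      ∀ w, Fx ρ {i, j, l, m} w → ρ u (ρ u w - w) = ρ u w - w := by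
    intro x y x' y' hxy hxy' hx hy hx' hy' u hu w hw
    have e : u = dt x y a b hxy hab * dt x' y' a b hxy' hab := by
      refine Subtype.ext ?_
      have c : swap a b * swap x' y' = swap x' y' * swap a b := by
        have h1 : x' ≠ a := fun e => ha (e ▸ hx')
        have h2 : x' ≠ b := fun e => hb' (e ▸ hx')
        have h3 : y' ≠ a := fun e => ha (e ▸ hy')
        have h4 : y' ≠ b := fun e => hb' (e ▸ hy')
        rw [mul_swap_eq_swap_mul, swap_apply_of_ne_of_ne h1 h2, swap_apply_of_ne_of_ne h3 h4]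
      change _ = swap x y * swap a b * (swap x' y' * swap a b)
      rw [hu, ← c, mul_assoc, swap_mul_self_mul]
    have e2 : ρ u w - w = (ρ (dt x' y' a b hxy' hab) w - w) + (ρ (dt x y a b hxy hab) w - w) := by
      rw [← key hxy' hx' hy' w hw (dt x y a b hxy hab), e, b_mul, map_sub]
      abel
    rw [e2, map_add, key hxy' hx' hy' w hw, key hxy hx hy w hw]
  simp only [Finset.mem_insert, Finset.mem_singleton, not_or] at hl hm
  by_cases h3 : (3 : k) = 0
  · have h2 : (2 : k) ≠ 0 := fun h => one_ne_zero (α := k) (by linear_combination h3 - h)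
    refine hg0 (b_triv h9 (u := dt i j l m hij hlm) (fun e => ?_) (fun v => ?_) g0)
    · have := congrArg (fun g : alternatingGroup α => g.1 i) e
      simp [dt, swap_apply_of_ne_of_ne (Ne.symm hl.1) (Ne.symm hm.1)] at this
      exact hij this.symm
    · have e1 := key2 hij hlm (by simp) (by simp) (by simp) (by simp) (dt i j l m hij hlm) rfl _
        (dt_fx H hij hlm hl.1 hl.2 hm.1 v)
      have e2 : ρ (dt i j l m hij hlm) (ρ (dt i j l m hij hlm) v) = v := by
        rw [← b_mul, dt_sq hij hlm hl.1 hl.2 hm.1 hm.2, map_one]; rfl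
      simp only [map_sub, e2] at e1
      have e3 : (2 : k) • (2 : k) • (ρ (dt i j l m hij hlm) v - v) = 0 := by
        linear_combination (norm := module) e1
      rwa [smul_eq_zero_iff_right h2, smul_eq_zero_iff_right h2, sub_eq_zero] at e3
  · have c1 := Perm.isThreeCycle_swap_mul_swap_same hij (Ne.symm hl.1) (Ne.symm hl.2)
    refine hg0 (b_triv h9 (u := ⟨_, c1.mem_alternatingGroup⟩) (fun e => c1.ne_one (congrArg Subtype.val e))
      (fun v => ?_) g0)
    have e1 := key2 hij (Ne.symm hl.1) (by simp) (by simp) (by simp) (by simp) ⟨_, c1.mem_alternatingGroup⟩ rfl _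
      (tc_fx H (S := {i, j, l, m}) (u := ⟨_, c1.mem_alternatingGroup⟩) c1 (fun x hx => by
        simp only [Finset.mem_insert, Finset.mem_singleton, not_or] at hx
        simp [swap_apply_of_ne_of_ne, hx]) v)
    have e0 : (⟨_, c1.mem_alternatingGroup⟩ : alternatingGroup α) * (⟨_, c1.mem_alternatingGroup⟩ *
        ⟨_, c1.mem_alternatingGroup⟩) = 1 := by
      refine Subtype.ext ?_
      have := pow_orderOf_eq_one (swap i j * swap i l)
      rw [c1.orderOf, pow_succ', pow_two] at this
      exact this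
    generalize (⟨_, c1.mem_alternatingGroup⟩ : alternatingGroup α) = u at e1 e0
    have e2 : ∀ v, ρ u (ρ u (ρ u v)) = v := fun v => by rw [← b_mul, ← b_mul, mul_assoc, e0, map_one]; rfl
    simp only [map_sub, e2] at e1
    have e3 : (3 : k) • (ρ u v - ρ u (ρ u v)) = 0 := by
      linear_combination (norm := module) e1
    rw [smul_eq_zero_iff_right h3, sub_eq_zero] at e3
    have e4 := congrArg (ρ u) e3
    rw [e2] at e4
    rw [e3, e4]

theorem tb : TB := by
  intro k _ p _ _ V _ _ _ r hr ρ hn H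
  have := b_all (α := Fin r) p H (by simpa using hr) hn
  simpa using this

end Cfsg.Agent.AltL
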