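import Mathlib
import Cfsg.Agent.AltL.Def

/-!
More interfaces for the degree bound for alternating sections of linear groups.
-/

set_option autoImplicit false

namespace Cfsg.Agent.AltL

universe u

/-- the bound for perfect central extensions when a disjoint pair has vanishing double commutator -/
def TH : Prop := ∀ (k : Type) [Field k] (p : ℕ) [Fact p.Prime] [CharP k p]
  (V : Type) [AddCommGroup V] [Module k V] [FiniteDimensional k V] (r : ℕ), 9 ≤ r →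
  ∀ (H : Type u) [Group H] [Finite H] (π : H →* alternatingGroup (Fin r)),
  Function.Surjective π → π.ker ≤ Subgroup.center H → Group.IsPerfect H →
  ∀ ρ : Representation k H V, (∃ g, ρ g ≠ 1) →
  (∃ u v : H, π u ≠ 1 ∧ π v ≠ 1 ∧ (π u).1.Disjoint (π v).1 ∧ (π u).1.support.card + 5 ≤ r ∧
    (ρ u - 1) * (ρ v - 1) = 0) → bd p r ≤ Module.finrank k V

/-- eigenspaces of one element of prime order -/
def LW : Prop := ∀ (k : Type) [Field k] [IsAlgClosed k]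
  (V : Type) [AddCommGroup V] [Module k V] [FiniteDimensional k V]
  (H : Type u) [Group H] (ρ : Representation k H V) (l : ℕ), l.Prime → (l : k) ≠ 0 →
  ∀ (y : H) (L L₀ : Subgroup H) (b : ℕ), y ^ l = 1 → L₀ ≤ L → (∀ x ∈ L, x * y = y * x) →
  (∀ j, 0 < j → j < l → ∃ g : H, g * y * g⁻¹ = y ^ j ∧ ∀ x, x ∈ L₀ ↔ g * x * g⁻¹ ∈ L₀) →
  (∀ U : Submodule k V, (∀ x ∈ L, ∀ v ∈ U, ρ x v ∈ U) → (∃ x ∈ L₀, ∃ v ∈ U, ρ x v ≠ v) →
    b ≤ Module.finrank k U) →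
  (∃ x ∈ L₀, (ρ y - 1) * (ρ x - 1) ≠ 0) → (l - 1) * b ≤ Module.finrank k V

/-- joint eigenspaces of two commuting elements of order `5` -/
def LW5 : Prop := ∀ (k : Type) [Field k] [IsAlgClosed k]
  (V : Type) [AddCommGroup V] [Module k V] [FiniteDimensional k V]
  (H : Type u) [Group H] (ρ : Representation k H V), (5 : k) ≠ 0 →
  ∀ y₁ y₂ w c : H, y₁ ^ 5 = 1 → y₂ ^ 5 = 1 → y₁ * y₂ = y₂ * y₁ →
  w * y₁ * w⁻¹ = y₂ → w * y₂ * w⁻¹ = y₁ ^ 2 → c * y₁ * c⁻¹ = y₁⁻¹ → c * y₂ * c⁻¹ = y₂ →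
  (ρ y₁ - 1) * (ρ y₂ - 1) ≠ 0 → 16 ≤ Module.finrank k V

/-- joint eigenspaces of two commuting elements of order `3` -/
def LW3 : Prop := ∀ (k : Type) [Field k] [IsAlgClosed k]
  (V : Type) [AddCommGroup V] [Module k V] [FiniteDimensional k V]
  (H : Type u) [Group H] (ρ : Representation k H V), (3 : k) ≠ 0 →
  ∀ y₁ y₂ w : H, y₁ ^ 3 = 1 → y₂ ^ 3 = 1 → y₁ * y₂ = y₂ * y₁ →
  w * y₁ * w⁻¹ = y₂ → w * y₂ * w⁻¹ = y₁⁻¹ → ρ y₁ ≠ 1 → 4 ≤ Module.finrank k V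

end Cfsg.Agent.AltL
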