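import Mathlib
import Cfsg.Agent.AltL.Def2
import Cfsg.Agent.S0892

/-!
The degree bound for perfect central extensions of alternating groups of small degree.
-/

set_option autoImplicit false

namespace Cfsg.Agent.AltL
open scoped commutatorElement

universe u

section lift
variable {H A : Type*} [Group H] [Group A] {π : H →* A}

theorem e1_uniq (hz : ∀ z, π z = 1 → z ^ 2 = 1 ∧ ∀ g, g * z = z * g) {m : ℕ} (hm : Odd m)
    {a b : H} (ha : a ^ m = 1) (hb : b ^ m = 1) (h : π a = π b) : a = b := by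
  obtain ⟨h1, h2⟩ := hz (a * b⁻¹) (by rw [map_mul, map_inv, h, mul_inv_cancel])
  have h3 : (a * b⁻¹) ^ m = 1 := by
    have : Commute (a * b⁻¹) b := (h2 b).symm
    have h4 := this.mul_pow m
    rwa [inv_mul_cancel_right, ha, hb, mul_one, eq_comm] at h4
  obtain ⟨n, rfl⟩ := hm
  rw [pow_succ, pow_mul, h1, one_pow, one_mul] at h3
  exact mul_inv_eq_one.1 h3

theorem e1_lift (hs : Function.Surjective π)
    (hz : ∀ z, π z = 1 → z ^ 2 = 1 ∧ ∀ g, g * z = z * g) {m : ℕ} (hm : Odd m)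
    {σ : A} (h : σ ^ m = 1) : ∃ y, π y = σ ∧ y ^ m = 1 := by
  obtain ⟨x, rfl⟩ := hs σ
  obtain ⟨h1, -⟩ := hz (x ^ m) (by rw [map_pow, h])
  refine ⟨x ^ (m + 1), by rw [map_pow, pow_succ, h, one_mul], ?_⟩
  obtain ⟨n, rfl⟩ := hm
  rw [← pow_mul, show (2 * n + 1 + 1) * (2 * n + 1) = (2 * n + 1) * 2 * (n + 1) by ring, pow_mul,
    pow_mul, h1, one_pow]

theorem e1_conj (hz : ∀ z, π z = 1 → z ^ 2 = 1 ∧ ∀ g, g * z = z * g) {m : ℕ} (hm : Odd m)
    {a b g : H} (ha : a ^ m = 1) (hb : b ^ m = 1) (h : π g * π a * (π g)⁻¹ = π b) :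
    g * a * g⁻¹ = b :=
  e1_uniq hz hm (by rw [conj_pow, ha, mul_one, mul_inv_cancel]) hb
    (by rw [map_mul, map_mul, map_inv, h])

theorem e1_cent (hz : ∀ z, π z = 1 → z ^ 2 = 1 ∧ ∀ g, g * z = z * g) {m : ℕ} (hm : Odd m)
    {a g : H} (ha : a ^ m = 1) (h : π g * π a = π a * π g) :
    g ∈ Subgroup.centralizer ({a} : Set H) := by
  rw [Subgroup.mem_centralizer_singleton_iff, ← mul_inv_eq_iff_eq_mul]
  exact e1_conj hz hm ha ha (by rw [h, mul_inv_cancel_right])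

theorem e1_norm {y g : H} {l j : ℕ} (hl : l.Prime) (hy : y ^ l = 1) (h0 : 0 < j) (hj : j < l)
    (h : g * y * g⁻¹ = y ^ j) (x : H) :
    x ∈ Subgroup.centralizer ({y} : Set H) ↔ g * x * g⁻¹ ∈ Subgroup.centralizer ({y} : Set H) := by
  simp only [Subgroup.mem_centralizer_singleton_iff]
  obtain ⟨m, hm⟩ := exists_pow_eq_self_of_coprime (x := y) (n := j)
    (Nat.Coprime.coprime_dvd_right (orderOf_dvd_of_pow_eq_one hy)
      (Nat.coprime_of_lt_prime h0.ne' hj hl).symm)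
  constructor
  · intro hx
    have : Commute (g * x * g⁻¹) (y ^ j) := by
      rw [← h]
      calc g * x * g⁻¹ * (g * y * g⁻¹) = g * (x * y) * g⁻¹ := by group
        _ = g * y * g⁻¹ * (g * x * g⁻¹) := by rw [hx]; group
    have := this.pow_right m
    rw [hm] at this
    exact this.eq
  · intro hx
    have : Commute (g * x * g⁻¹) (y ^ j) := Commute.pow_right hx j
    rw [← h] at this
    calc x * y = g⁻¹ * (g * x * g⁻¹ * (g * y * g⁻¹)) * g := by group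
      _ = y * x := by rw [this.eq]; group

theorem e1_map {L : Subgroup H} {g : H} (h : ∀ x, x ∈ L ↔ g * x * g⁻¹ ∈ L) :
    L.map (MulAut.conj g).toMonoidHom = L := by
  ext x
  constructor
  · rintro ⟨y, hy, rfl⟩
    exact (h y).1 hy
  · intro hx
    exact ⟨g⁻¹ * x * g, (h _).2 (by simpa [mul_assoc] using hx), by simp [mul_assoc]⟩

theorem e1_iff {L : Subgroup H} {g : H} (h : L.map (MulAut.conj g).toMonoidHom = L) (x : H) :
    x ∈ L ↔ g * x * g⁻¹ ∈ L := by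
  conv_rhs => rw [← h]
  exact (Subgroup.mem_map_iff_mem (f := (MulAut.conj g).toMonoidHom) (MulAut.conj g).injective).symm

end lift

theorem e1_comm {k U : Type*} [Field k] [AddCommGroup U] [Module k U] [FiniteDimensional k U]
    (h : Module.finrank k U ≤ 1) (f g : Module.End k U) : f * g = g * f := by
  obtain ⟨v, hv⟩ := finrank_le_one_iff.1 h
  obtain ⟨a, ha⟩ := hv (f v)
  obtain ⟨b, hb⟩ := hv (g v)
  ext w
  obtain ⟨c, rfl⟩ := hv w
  simp only [Module.End.mul_apply, map_smul, ← ha, ← hb, smul_smul]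
  congr 1
  ring

/-- restriction of a representation -/
def e1_res {k V H : Type*} [Field k] [AddCommGroup V] [Module k V] [Group H]
    (ρ : Representation k H V) (L : Subgroup H) (U : Submodule k V)
    (h : ∀ x ∈ L, ∀ v ∈ U, ρ x v ∈ U) : Representation k L U :=
  Representation.subrepresentation (ρ.comp L.subtype) U fun g v hv => h g g.2 v hv

theorem e1_fix {k V H : Type*} [Field k] [AddCommGroup V] [Module k V] [Group H]
    {ρ : Representation k H V} {L : Subgroup H} {U : Submodule k V}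
    (h : ∀ x ∈ L, ∀ v ∈ U, ρ x v ∈ U) {x : H} (hx : x ∈ (e1_res ρ L U h).ker.map L.subtype)
    {v : V} (hv : v ∈ U) : ρ x v = v := by
  obtain ⟨y, hy, rfl⟩ := hx
  exact congrArg Subtype.val (LinearMap.congr_fun (MonoidHom.mem_ker.1 hy) ⟨v, hv⟩)

section main
variable {k : Type} [Field k] [IsAlgClosed k] {V : Type} [AddCommGroup V] [Module k V]
  [FiniteDimensional k V] {r : ℕ} {H : Type u} [Group H] {π : H →* alternatingGroup (Fin r)}
  {ρ : Representation k H V}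

theorem e1_two (lw : LW.{u}) (hs : Function.Surjective π)
    (hz : ∀ z, π z = 1 → z ^ 2 = 1 ∧ ∀ g, g * z = z * g)
    (h0 : ∀ u v : H, π u ≠ 1 → π v ≠ 1 → (π u).1.Disjoint (π v).1 →
      (π u).1.support.card + 5 ≤ r → (ρ u - 1) * (ρ v - 1) ≠ 0)
    {l : ℕ} (hl : l.Prime) (ho : Odd l) (hk : (l : k) ≠ 0) (σ τ α β : alternatingGroup (Fin r))
    (h : σ ^ l = 1 ∧ σ ≠ 1 ∧ (∀ j < l, 0 < j → ∃ i < l, τ ^ i * σ * (τ ^ i)⁻¹ = σ ^ j) ∧
      α * σ = σ * α ∧ β * σ = σ * β ∧ α * β * α⁻¹ * β⁻¹ ≠ 1 ∧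
      (∀ x, (α * β * α⁻¹ * β⁻¹).1 x = x ∨ σ.1 x = x) ∧
      (α * β * α⁻¹ * β⁻¹).1.support.card + 5 ≤ r) : (l - 1) * 2 ≤ Module.finrank k V := by
  obtain ⟨h1, h2, h3, h4, h5, h6, h7, h8⟩ := h
  obtain ⟨y, rfl, hy⟩ := e1_lift hs hz ho h1
  obtain ⟨a, rfl⟩ := hs α
  obtain ⟨b, rfl⟩ := hs β
  have ha := e1_cent hz ho hy h4
  have hb := e1_cent hz ho hy h5
  set L := Subgroup.centralizer ({y} : Set H) with hL
  have hc : ∀ x ∈ L, x * y = y * x := fun x hx => Subgroup.mem_centralizer_singleton_iff.1 hx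
  refine lw k V H ρ l hl hk y L ⁅L, L⁆ 2 hy (Subgroup.commutator_le.2 fun a ha b hb =>
    L.mul_mem (L.mul_mem (L.mul_mem ha hb) (L.inv_mem ha)) (L.inv_mem hb)) hc
    (fun j j0 jl => ?_) (fun U hU hx => ?_) ⟨⁅a, b⁆, Subgroup.commutator_mem_commutator ha hb, ?_⟩
  · obtain ⟨i, -, hi⟩ := h3 j jl j0
    obtain ⟨g, hg⟩ := hs (τ ^ i)
    have h9 : g * y * g⁻¹ = y ^ j := e1_conj hz ho hy
      (by rw [← pow_mul, mul_comm, pow_mul, hy, one_pow]) (by rw [hg, hi, map_pow])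
    refine ⟨g, h9, e1_iff ?_⟩
    rw [Subgroup.map_commutator, e1_map (e1_norm hl hy j0 jl h9)]
  · by_contra hlt
    obtain ⟨x, hx, v, hv, hne⟩ := hx
    refine hne (e1_fix hU (Subgroup.commutator_le.2 (fun a ha b hb => ?_) hx) hv)
    refine ⟨⁅(⟨a, ha⟩ : L), ⟨b, hb⟩⁆, ?_, rfl⟩
    rw [SetLike.mem_coe, MonoidHom.mem_ker, commutatorElement_def, map_mul, map_mul, map_mul,
      e1_comm (by omega) (e1_res ρ L U hU _) (e1_res ρ L U hU ⟨b, hb⟩), ← map_mul, ← map_mul,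
      ← map_mul, mul_inv_cancel_right, mul_inv_cancel, map_one]
  · have e : π ⁅a, b⁆ = π a * π b * (π a)⁻¹ * (π b)⁻¹ := by simp [commutatorElement_def]
    have h9 := h0 ⁅a, b⁆ y (e ▸ h6) h2 (e ▸ h7) (e ▸ h8)
    have h10 : ρ ⁅a, b⁆ * ρ y = ρ y * ρ ⁅a, b⁆ := by
      rw [← map_mul, ← map_mul, hc ⁅a, b⁆ (L.mul_mem (L.mul_mem (L.mul_mem ha hb) (L.inv_mem ha))
        (L.inv_mem hb))]
    intro h11
    apply h9
    rw [← h11]
    simp only [mul_sub, sub_mul, mul_one, one_mul, h10]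
    abel

theorem e1_five (l5 : LW5.{u}) (hs : Function.Surjective π)
    (hz : ∀ z, π z = 1 → z ^ 2 = 1 ∧ ∀ g, g * z = z * g)
    (h0 : ∀ u v : H, π u ≠ 1 → π v ≠ 1 → (π u).1.Disjoint (π v).1 →
      (π u).1.support.card + 5 ≤ r → (ρ u - 1) * (ρ v - 1) ≠ 0)
    (hk : (5 : k) ≠ 0) (σ τ α β : alternatingGroup (Fin r))
    (h : σ ^ 5 = 1 ∧ τ ^ 5 = 1 ∧ σ ≠ 1 ∧ τ ≠ 1 ∧ σ * τ = τ * σ ∧ α * σ * α⁻¹ = τ ∧
      α * τ * α⁻¹ = σ ^ 2 ∧ β * σ * β⁻¹ = σ⁻¹ ∧ β * τ * β⁻¹ = τ ∧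
      (∀ x, σ.1 x = x ∨ τ.1 x = x) ∧ σ.1.support.card + 5 ≤ r) : 16 ≤ Module.finrank k V := by
  obtain ⟨h1, h2, h3, h4, h5, h6, h7, h8, h9, h10, h11⟩ := h
  have ho : Odd 5 := by decide
  obtain ⟨y, rfl, hy⟩ := e1_lift hs hz ho h1
  obtain ⟨x, rfl, hx⟩ := e1_lift hs hz ho h2
  obtain ⟨a, rfl⟩ := hs α
  obtain ⟨b, rfl⟩ := hs β
  exact l5 k V H ρ hk y x a b hy hx
    (Subgroup.mem_centralizer_singleton_iff.1 (e1_cent hz ho hx h5)) (e1_conj hz ho hy hx h6)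
    (e1_conj hz ho hx (by rw [← pow_mul, mul_comm, pow_mul, hy, one_pow]) (by rw [h7, map_pow]))
    (e1_conj hz ho hy (by rw [inv_pow, hy, inv_one]) (by rw [h8, map_inv]))
    (e1_conj hz ho hx hx h9) (h0 y x h3 h4 h10 h11)

theorem e1_three (lw : LW.{u}) (l3 : LW3.{u}) (hs : Function.Surjective π)
    (hz : ∀ z, π z = 1 → z ^ 2 = 1 ∧ ∀ g, g * z = z * g)
    (h0 : ∀ u v : H, π u ≠ 1 → π v ≠ 1 → (π u).1.Disjoint (π v).1 →
      (π u).1.support.card + 5 ≤ r → (ρ u - 1) * (ρ v - 1) ≠ 0)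
    (hk : (3 : k) ≠ 0) (σ s t ω γ : alternatingGroup (Fin r))
    (h : σ ^ 3 = 1 ∧ s ^ 3 = 1 ∧ t ^ 3 = 1 ∧ σ ≠ 1 ∧ s ≠ 1 ∧ s * σ = σ * s ∧ t * σ = σ * t ∧
      ω * σ = σ * ω ∧ s * t = t * s ∧ ω * s * ω⁻¹ = t ∧ ω * t * ω⁻¹ = s⁻¹ ∧
      γ * σ * γ⁻¹ = σ ^ 2 ∧ γ * s * γ⁻¹ = s ∧
      (∀ x, σ.1 x = x ∨ s.1 x = x) ∧ σ.1.support.card + 5 ≤ r) : 8 ≤ Module.finrank k V := by
  obtain ⟨h1, h2, h3, h4, h5, h6, h7, h8, h9, h10, h11, h12, h13, h14, h15⟩ := h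
  have ho : Odd 3 := by decide
  obtain ⟨y, rfl, hy⟩ := e1_lift hs hz ho h1
  obtain ⟨a, rfl, ha⟩ := e1_lift hs hz ho h2
  obtain ⟨b, rfl, hb⟩ := e1_lift hs hz ho h3
  obtain ⟨w, rfl⟩ := hs ω
  obtain ⟨g, rfl⟩ := hs γ
  have ma := e1_cent hz ho hy h6
  have mb := e1_cent hz ho hy h7
  have mw := e1_cent hz ho hy h8
  set L := Subgroup.centralizer ({y} : Set H) with hL
  have hc : ∀ x ∈ L, x * y = y * x := fun x hx => Subgroup.mem_centralizer_singleton_iff.1 hx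
  have hg : g * y * g⁻¹ = y ^ 2 := e1_conj hz ho hy
    (by rw [← pow_mul, mul_comm, pow_mul, hy, one_pow]) (by rw [h12, map_pow])
  have hga : g * a * g⁻¹ = a := e1_conj hz ho ha ha h13
  have e1 : w * a * w⁻¹ = b := e1_conj hz ho ha hb h10
  have e2 : w * b * w⁻¹ = a⁻¹ := e1_conj hz ho hb (by rw [inv_pow, ha, inv_one])
    (by rw [h11, map_inv])
  refine lw k V H ρ 3 Nat.prime_three (by exact_mod_cast hk) y L ⁅L, Subgroup.zpowers a⁆ 4 hy
    (Subgroup.commutator_le.2 fun c hc' d hd => ?_) hc (fun j j0 jl => ?_) (fun U hU hx => ?_) ?_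
  · have hd' : d ∈ L := Subgroup.zpowers_le.2 ma hd
    exact L.mul_mem (L.mul_mem (L.mul_mem hc' hd') (L.inv_mem hc')) (L.inv_mem hd')
  · interval_cases j
    · exact ⟨1, by simp, by simp⟩
    · refine ⟨g, hg, e1_iff ?_⟩
      rw [Subgroup.map_commutator, e1_map (e1_norm Nat.prime_three hy j0 jl hg),
        MonoidHom.map_zpowers]
      exact congrArg (fun x => ⁅L, Subgroup.zpowers x⁆) hga
  · refine l3 k U L (e1_res ρ L U hU) hk ⟨a, ma⟩ ⟨b, mb⟩ ⟨w, mw⟩ (Subtype.ext ha) (Subtype.ext hb)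
      (Subtype.ext (Subgroup.mem_centralizer_singleton_iff.1 (e1_cent hz ho hb h9)))
      (Subtype.ext e1) (Subtype.ext e2) fun e => ?_
    obtain ⟨x, hx, v, hv, hne⟩ := hx
    refine hne (e1_fix hU (Subgroup.commutator_le.2 (fun c hc' d hd => ?_) hx) hv)
    have h16 : Subgroup.zpowers a ≤ (e1_res ρ L U hU).ker.map L.subtype :=
      Subgroup.zpowers_le.2 ⟨⟨a, ma⟩, e, rfl⟩
    obtain ⟨d, hd', rfl⟩ := h16 hd
    exact ⟨⁅(⟨c, hc'⟩ : L), d⁆, Subgroup.mul_mem _ ((MonoidHom.normal_ker _).conj_mem d hd' _)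
      (Subgroup.inv_mem _ hd'), rfl⟩
  · refine ⟨a, ?_, h0 y a h4 h5 h14 h15⟩
    have e3 : ⁅w * w, a⁆ = a := by
      calc ⁅w * w, a⁆ = w * (w * a * w⁻¹) * w⁻¹ * a⁻¹ := by rw [commutatorElement_def]; group
        _ = (a ^ 3)⁻¹ * a := by rw [e1, e2]; group
        _ = a := by rw [ha, inv_one, one_mul]
    have := Subgroup.commutator_mem_commutator (L.mul_mem mw mw) (Subgroup.mem_zpowers a)
    rwa [e3] at this

end main

/-- even permutations from cycles -/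
def e1_p (r : ℕ) [NeZero r] (l : List (List ℕ))
    (h : Equiv.Perm.sign (l.map fun c => (c.map (Fin.ofNat r)).formPerm).prod = 1 := by
      decide +kernel) : alternatingGroup (Fin r) := ⟨_, h⟩

theorem e_small (lw : LW.{u}) (l5 : LW5.{u}) (l3 : LW3.{u}) (th : TH.{u}) :
    ∀ (k : Type) [Field k] [IsAlgClosed k] (p : ℕ) [Fact p.Prime] [CharP k p]
    (V : Type) [AddCommGroup V] [Module k V] [FiniteDimensional k V] (r : ℕ), 9 ≤ r → r ≤ 13 →
    ∀ (H : Type u) [Group H] [Finite H] (π : H →* alternatingGroup (Fin r)),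
    Function.Surjective π → π.ker ≤ Subgroup.center H → Group.IsPerfect H →
    ∀ ρ : Representation k H V, (∃ g, ρ g ≠ 1) → bd p r ≤ Module.finrank k V := by
  intro k _ _ p hp _ V _ _ _ r h9 h13 H _ _ π hs hc hP ρ hρ
  by_cases hH : ∃ u v : H, π u ≠ 1 ∧ π v ≠ 1 ∧ (π u).1.Disjoint (π v).1 ∧
      (π u).1.support.card + 5 ≤ r ∧ (ρ u - 1) * (ρ v - 1) = 0
  · exact th k p V r h9 H π hs hc hP ρ hρ hH
  have h0 : ∀ u v : H, π u ≠ 1 → π v ≠ 1 → (π u).1.Disjoint (π v).1 →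
      (π u).1.support.card + 5 ≤ r → (ρ u - 1) * (ρ v - 1) ≠ 0 :=
    fun u v h1 h2 h3 h4 h5 => hH ⟨u, v, h1, h2, h3, h4, h5⟩
  have h2 := S0892.result r (by omega) (by omega) (by omega) π.ker hc
    (by rw [Group.IsPerfect.commutator_eq_top]; exact le_top)
    (QuotientGroup.quotientKerEquivOfSurjective π hs)
  have hz : ∀ z, π z = 1 → z ^ 2 = 1 ∧ ∀ g, g * z = z * g := fun z h => by
    refine ⟨?_, Subgroup.mem_center_iff.1 (hc h)⟩
    have h3 : (⟨z, h⟩ : π.ker) ^ Nat.card π.ker = 1 := pow_card_eq_one'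
    have h4 : z ^ Nat.card π.ker = 1 := congrArg Subtype.val h3
    have h5 : 0 < Nat.card π.ker := Nat.card_pos
    generalize Nat.card π.ker = n at *
    interval_cases n
    · rw [pow_one] at h4
      rw [h4, one_pow]
    · exact h4
  have hk : ∀ l : ℕ, l.Prime → p ≠ l → (l : k) ≠ 0 := fun l hl h e =>
    h ((Nat.prime_dvd_prime_iff_eq hp.out hl).1 ((CharP.cast_eq_zero_iff k p l).1 e))
  have hb : bd p r ≤ r - 1 := Nat.sub_le _ _
  by_cases h5 : p = 5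
  · subst h5
    have k3 : (3 : k) ≠ 0 := by exact_mod_cast hk 3 Nat.prime_three (by decide)
    have k7 := hk 7 (by norm_num) (by decide)
    interval_cases r
    · exact hb.trans (e1_three lw l3 hs hz h0 k3 (e1_p 9 [[0, 1, 2]]) (e1_p 9 [[3, 4, 5]])
        (e1_p 9 [[6, 7, 8]]) (e1_p 9 [[3, 6], [4, 7, 5, 8]]) (e1_p 9 [[1, 2], [6, 7]])
        (by decide +kernel))
    · exact e1_three lw l3 hs hz h0 k3 (e1_p 10 [[0, 1, 2]]) (e1_p 10 [[3, 4, 5]])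
        (e1_p 10 [[6, 7, 8]]) (e1_p 10 [[3, 6], [4, 7, 5, 8]]) (e1_p 10 [[1, 2], [6, 7]])
        (by decide +kernel)
    all_goals
      exact hb.trans (le_trans (by decide) (e1_two lw hs hz h0 (by norm_num) (by decide) k7
        (e1_p _ [[0, 1, 2, 3, 4, 5, 6]]) (e1_p _ [[1, 3, 2, 6, 4, 5], [7, 8]])
        (e1_p _ [[7, 8, 9]]) (e1_p _ [[7, 8], [9, 10]]) (by decide +kernel)))
  · have k5 := hk 5 (by norm_num) h5
    interval_cases r
    · exact hb.trans (e1_two lw hs hz h0 (by norm_num) (by decide) k5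
        (e1_p 9 [[0, 1, 2, 3, 4]]) (e1_p 9 [[1, 2, 4, 3], [5, 6]])
        (e1_p 9 [[5, 6, 7]]) (e1_p 9 [[5, 6], [7, 8]]) (by decide +kernel))
    all_goals
      exact hb.trans (le_trans (by decide) (e1_five l5 hs hz h0 (by exact_mod_cast k5)
        (e1_p _ [[0, 1, 2, 3, 4]]) (e1_p _ [[5, 6, 7, 8, 9]])
        (e1_p _ [[0, 5], [1, 6, 2, 7, 4, 9, 3, 8]]) (e1_p _ [[1, 4], [2, 3]]) (by decide +kernel)))

end Cfsg.Agent.AltL
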