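import Mathlib
import Cfsg.Agent.AltL.Def2
import Cfsg.Agent.S0892

/-!
The degree bound for perfect central extensions of `A_r`, `9 ≤ r ≤ 13`, in characteristic `5`.
-/

set_option autoImplicit false

namespace Cfsg.Agent.AltL

open Equiv Equiv.Perm Subgroup
open scoped commutatorElement

universe u

section
variable {H A : Type*} [Group H] [Group A] {π : H →* A}

theorem f5_uniq (hc : π.ker ≤ center H) (h2 : ∀ z ∈ π.ker, z ^ 2 = 1) {l : ℕ} (hl : Odd l) {a b : H}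
    (ha : a ^ l = 1) (hb : b ^ l = 1) (e : π a = π b) : a = b := by
  have m : a * b⁻¹ ∈ π.ker := by simp [MonoidHom.mem_ker, e]
  have c : Commute (a * b⁻¹) b := (mem_center_iff.mp (hc m) b).symm
  have h1 : (a * b⁻¹) ^ l = 1 := by
    have := c.mul_pow l
    rw [inv_mul_cancel_right, ha, hb, mul_one] at this
    exact this.symm
  obtain ⟨n, rfl⟩ := hl
  rw [pow_succ, pow_mul, h2 _ m, one_pow, one_mul] at h1
  exact mul_inv_eq_one.mp h1

theorem f5_lift (hs : Function.Surjective π) (h2 : ∀ z ∈ π.ker, z ^ 2 = 1) {l : ℕ} (hl : Odd l) {a : A}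
    (ha : a ^ l = 1) : ∃ y : H, π y = a ∧ y ^ l = 1 := by
  obtain ⟨x, rfl⟩ := hs a
  obtain ⟨n, hn⟩ := hl
  refine ⟨x ^ (l + 1), by rw [map_pow, pow_succ, ha, one_mul], ?_⟩
  have := h2 (x ^ l) (by rw [MonoidHom.mem_ker, map_pow, ha])
  rw [← pow_mul, mul_comm, pow_mul, show l + 1 = 2 * (n + 1) by omega, pow_mul, this, one_pow]

theorem f5_conj (hc : π.ker ≤ center H) (h2 : ∀ z ∈ π.ker, z ^ 2 = 1) {l : ℕ} (hl : Odd l) {a b g : H}
    (ha : a ^ l = 1) (hb : b ^ l = 1) (e : π g * π a * (π g)⁻¹ = π b) : g * a * g⁻¹ = b :=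
  f5_uniq hc h2 hl (by rw [conj_pow, ha]; simp) hb (by simpa using e)

theorem f5_cen (hc : π.ker ≤ center H) (h2 : ∀ z ∈ π.ker, z ^ 2 = 1) {l : ℕ} (hl : Odd l) {a g : H}
    (ha : a ^ l = 1) (e : π g * π a * (π g)⁻¹ = π a) : g ∈ centralizer ({a} : Set H) := by
  rw [mem_centralizer_singleton_iff]
  exact mul_inv_eq_iff_eq_mul.mp (f5_conj hc h2 hl ha ha e)

end

variable {k : Type} [Field k] {V : Type} [AddCommGroup V] [Module k V] [FiniteDimensional k V]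
  {H : Type u} [Group H] [Finite H]

omit [Finite H] in
theorem f5_two (ρ : Representation k H V) (L : Subgroup H) (U : Submodule k V)
    (hU : ∀ x ∈ L, ∀ v ∈ U, ρ x v ∈ U) (h : ∃ x ∈ ⁅L, L⁆, ∃ v ∈ U, ρ x v ≠ v) : 2 ≤ Module.finrank k U := by
  by_contra o
  obtain ⟨v, hv⟩ := finrank_le_one_iff.mp (show Module.finrank k U ≤ 1 by omega)
  let σ : Representation k L U := Representation.subrepresentation (ρ.comp L.subtype) U fun g w i => hU g g.2 w i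
  have c : ∀ f g : Module.End k U, f * g = g * f := fun f g => by
    obtain ⟨a, ha⟩ := hv (f v)
    obtain ⟨b, hb⟩ := hv (g v)
    refine LinearMap.ext fun w => ?_
    obtain ⟨e, rfl⟩ := hv w
    simp only [Module.End.mul_apply, map_smul, ← ha, ← hb, smul_smul]
    congr 1; ring
  have l : ⁅L, L⁆ ≤ σ.toHomUnits.ker.map L.subtype := commutator_le.mpr fun a i b j =>
    ⟨⁅(⟨a, i⟩ : L), ⟨b, j⟩⁆, by
      rw [SetLike.mem_coe, MonoidHom.mem_ker, map_commutatorElement, commutatorElement_eq_one_iff_mul_comm]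
      exact Units.ext (c _ _), rfl⟩
  obtain ⟨x, i, w, j, e⟩ := h
  obtain ⟨y, m, rfl⟩ := l i
  have := congrArg (fun f : (Module.End k U)ˣ => (f.1 ⟨w, j⟩ : V)) (MonoidHom.mem_ker.mp m)
  exact e this

theorem f5_seven [IsAlgClosed k] (lw : LW.{u}) (h7 : (7 : k) ≠ 0) (ρ : Representation k H V) {y g a b : H}
    (hy : y ^ 7 = 1) (hg : g * y * g⁻¹ = y ^ 3) (ha : a ∈ centralizer ({y} : Set H)) (hb : b ∈ centralizer ({y} : Set H))
    (h : (ρ ⁅a, b⁆ - 1) * (ρ y - 1) ≠ 0) : 12 ≤ Module.finrank k V := by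
  set L := centralizer ({y} : Set H) with hL
  have m := commutator_mem_commutator ha hb
  have le : ⁅L, L⁆ ≤ L := commutator_le.mpr fun a i b j => mul_mem (mul_mem (mul_mem i j) (inv_mem i)) (inv_mem j)
  have n1 : L.map (MulAut.conj g⁻¹).toMonoidHom ≤ L := by
    rintro _ ⟨x, i, rfl⟩
    have c : Commute x (g * y * g⁻¹) := hg ▸ Commute.pow_right (mem_centralizer_singleton_iff.mp i) 3
    rw [hL, mem_centralizer_singleton_iff]
    have := c.eq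
    simp only [MulEquiv.toMonoidHom_eq_coe, MonoidHom.coe_coe, MulAut.conj_apply, inv_inv]
    calc g⁻¹ * x * g * y = g⁻¹ * (x * (g * y * g⁻¹)) * g := by group
      _ = _ := by rw [this]; group
  have n2 : g ∈ normalizer ((⁅L, L⁆ : Subgroup H) : Set H) := by
    refine (inv_mem_iff).mp (mem_normalizer_fintype fun x i => ?_)
    have : (⁅L, L⁆ : Subgroup H).map (MulAut.conj g⁻¹).toMonoidHom ≤ ⁅L, L⁆ := by
      rw [map_commutator]; exact commutator_mono n1 n1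
    exact this ⟨x, i, rfl⟩
  have pw : ∀ n : ℕ, g ^ n * y * (g ^ n)⁻¹ = y ^ (3 ^ n % 7) := fun n => by
    rw [← pow_eq_pow_mod _ hy]
    induction n with
    | zero => simp
    | succ n ih =>
      calc g ^ (n + 1) * y * (g ^ (n + 1))⁻¹ = g * (g ^ n * y * (g ^ n)⁻¹) * g⁻¹ := by rw [pow_succ']; group
        _ = _ := by rw [ih, ← conj_pow, hg, ← pow_mul, pow_succ']
  refine lw k V H ρ 7 (by norm_num) (by exact_mod_cast h7) y L ⁅L, L⁆ 2 hy le
    (fun x i => mem_centralizer_singleton_iff.mp i) (fun j i o => ?_) (f5_two ρ L) ⟨_, m, fun e => h ?_⟩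
  · have : ∃ n, 3 ^ n % 7 = j := by
      interval_cases j
      exacts [⟨0, rfl⟩, ⟨2, rfl⟩, ⟨1, rfl⟩, ⟨4, rfl⟩, ⟨5, rfl⟩, ⟨3, rfl⟩]
    obtain ⟨n, rfl⟩ := this
    exact ⟨g ^ n, pw n, mem_normalizer_iff.mp (pow_mem n2 n)⟩
  · have c : ρ ⁅a, b⁆ * ρ y = ρ y * ρ ⁅a, b⁆ := by
      rw [← map_mul, ← map_mul, mem_centralizer_singleton_iff.mp (le m)]
    rw [← e]
    simp only [mul_sub, sub_mul, mul_one, one_mul, c]
    abel

theorem f5_three [IsAlgClosed k] (lw : LW.{u}) (l3 : LW3.{u}) (h3 : (3 : k) ≠ 0) (ρ : Representation k H V)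
    {y y₁ y₂ w g : H} (hy : y ^ 3 = 1) (h1 : y₁ ^ 3 = 1) (h2 : y₂ ^ 3 = 1) (c1 : y₁ ∈ centralizer ({y} : Set H))
    (c2 : y₂ ∈ centralizer ({y} : Set H)) (cw : w ∈ centralizer ({y} : Set H)) (c : y₁ * y₂ = y₂ * y₁)
    (w1 : w * y₁ * w⁻¹ = y₂) (w2 : w * y₂ * w⁻¹ = y₁⁻¹) (g0 : g * y * g⁻¹ = y ^ 2) (g1 : g * y₁ * g⁻¹ = y₁⁻¹)
    (g2 : g * y₂ * g⁻¹ = y₂) (h : (ρ y - 1) * (ρ y₁ - 1) ≠ 0) : 8 ≤ Module.finrank k V := by
  set L := centralizer ({y} : Set H) with hL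
  have m1 : y₁ ∈ closure ({y₁, y₂} : Set H) := subset_closure (by simp)
  have m2 : y₂ ∈ closure ({y₁, y₂} : Set H) := subset_closure (by simp)
  have le : closure ({y₁, y₂} : Set H) ≤ L := (closure_le _).mpr (by rintro _ (rfl | rfl); exacts [c1, c2])
  have n2 : g ∈ normalizer ((closure ({y₁, y₂} : Set H) : Subgroup H) : Set H) := by
    refine mem_normalizer_fintype fun x i => ?_
    have : (closure ({y₁, y₂} : Set H)).map (MulAut.conj g).toMonoidHom ≤ closure ({y₁, y₂} : Set H) := by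
      rw [MonoidHom.map_closure, closure_le]
      rintro _ ⟨_, rfl | rfl, rfl⟩
      · exact (show g * _ * g⁻¹ ∈ Subgroup.closure _ from g1 ▸ inv_mem m1)
      · exact (show g * _ * g⁻¹ ∈ Subgroup.closure _ from g2.symm ▸ m2)
    exact this ⟨x, i, rfl⟩
  refine lw k V H ρ 3 (by norm_num) (by exact_mod_cast h3) y L (closure {y₁, y₂}) 4 hy le
    (fun x i => mem_centralizer_singleton_iff.mp i) (fun j i o => ?_) (fun U hU h => ?_) ⟨_, m1, h⟩
  · interval_cases j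
    · exact ⟨1, by simp, by simp⟩
    · exact ⟨g, g0, mem_normalizer_iff.mp n2⟩
  · let σ : Representation k L U := Representation.subrepresentation (ρ.comp L.subtype) U fun g w i => hU g g.2 w i
    refine l3 k U L σ h3 ⟨y₁, c1⟩ ⟨y₂, c2⟩ ⟨w, cw⟩ (Subtype.ext h1) (Subtype.ext h2) (Subtype.ext c)
      (Subtype.ext w1) (Subtype.ext w2) fun e => ?_
    have e2 : σ ⟨y₂, c2⟩ = 1 := by
      rw [show (⟨y₂, c2⟩ : L) = ⟨w, cw⟩ * ⟨y₁, c1⟩ * (⟨w, cw⟩ : L)⁻¹ from Subtype.ext w1.symm, map_mul, map_mul, e,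
        mul_one, ← map_mul, mul_inv_cancel, map_one]
    have l : closure ({y₁, y₂} : Set H) ≤ σ.toHomUnits.ker.map L.subtype := (closure_le _).mpr (by
      rintro _ (rfl | rfl)
      exacts [⟨⟨_, c1⟩, Units.ext e, rfl⟩, ⟨⟨_, c2⟩, Units.ext e2, rfl⟩])
    obtain ⟨x, i, v, j, o⟩ := h
    obtain ⟨z, m, rfl⟩ := l i
    exact o (congrArg (fun f : (Module.End k U)ˣ => (f.1 ⟨v, j⟩ : V)) (MonoidHom.mem_ker.mp m))

theorem f5_ker {r : ℕ} (hr : 9 ≤ r) (π : H →* alternatingGroup (Fin r)) (hs : Function.Surjective π)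
    (hc : π.ker ≤ center H) (hp : Group.IsPerfect H) : ∀ z ∈ π.ker, z ^ 2 = 1 := fun z i => by
  have a := S0892.result r (by omega) (by omega) (by omega) π.ker hc (by rw [hp.commutator_eq_top]; exact le_top)
    (QuotientGroup.quotientKerEquivOfSurjective π hs)
  have b := pow_card_eq_one' (x := (⟨z, i⟩ : π.ker))
  have c : 0 < Nat.card π.ker := Nat.card_pos
  have d : (⟨z, i⟩ : π.ker) ^ 2 = 1 := by
    interval_cases Nat.card π.ker
    · rw [pow_one] at b; rw [b, one_pow]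
    · exact b
  exact congrArg Subtype.val d

theorem f5_A [IsAlgClosed k] (lw : LW.{u}) (h7 : (7 : k) ≠ 0) {r : ℕ} (π : H →* alternatingGroup (Fin r))
    (hs : Function.Surjective π) (hc : π.ker ≤ center H) (h2 : ∀ z ∈ π.ker, z ^ 2 = 1) (ρ : Representation k H V)
    (h0 : ∀ u v : H, π u ≠ 1 → π v ≠ 1 → (π u).1.Disjoint (π v).1 → (π u).1.support.card + 5 ≤ r →
      (ρ u - 1) * (ρ v - 1) ≠ 0) (y g a b : Perm (Fin r)) (sy : sign y = 1) (sg : sign g = 1) (sa : sign a = 1)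
    (sb : sign b = 1) (e : y ^ 7 = 1 ∧ g * y * g⁻¹ = y ^ 3 ∧ a * y * a⁻¹ = y ∧ b * y * b⁻¹ = y ∧ a * b * a⁻¹ * b⁻¹ ≠ 1 ∧
      y ≠ 1 ∧ (∀ i, (a * b * a⁻¹ * b⁻¹) i = i ∨ y i = i) ∧ (a * b * a⁻¹ * b⁻¹).support.card + 5 ≤ r) :
    12 ≤ Module.finrank k V := by
  obtain ⟨e1, e2, e3, e4, e5, e6, e7, e8⟩ := e
  have o : Odd 7 := by decide
  obtain ⟨y', py, hy⟩ := f5_lift hs h2 o (a := ⟨y, mem_alternatingGroup.mpr sy⟩) (Subtype.ext e1)
  obtain ⟨g', pg⟩ := hs ⟨g, mem_alternatingGroup.mpr sg⟩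
  obtain ⟨a', pa⟩ := hs ⟨a, mem_alternatingGroup.mpr sa⟩
  obtain ⟨b', pb⟩ := hs ⟨b, mem_alternatingGroup.mpr sb⟩
  have pc : (π ⁅a', b'⁆).1 = a * b * a⁻¹ * b⁻¹ := by rw [map_commutatorElement, pa, pb]; rfl
  refine f5_seven lw h7 ρ (g := g') (a := a') (b := b') hy
    (f5_conj hc h2 o hy (by rw [← pow_mul, mul_comm, pow_mul, hy, one_pow]) (by rw [map_pow, pg, py]; exact Subtype.ext e2))
    (f5_cen hc h2 o hy (by rw [pa, py]; exact Subtype.ext e3)) (f5_cen hc h2 o hy (by rw [pb, py]; exact Subtype.ext e4))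
    (h0 _ _ (fun i => e5 (by rw [← pc, i]; rfl)) (fun i => e6 (congrArg Subtype.val (py.symm.trans i)))
      (by rw [pc, py]; exact e7) (by rw [pc]; exact e8))

theorem f5_B [IsAlgClosed k] (lw : LW.{u}) (l3 : LW3.{u}) (h3 : (3 : k) ≠ 0) {r : ℕ} (π : H →* alternatingGroup (Fin r))
    (hs : Function.Surjective π) (hc : π.ker ≤ center H) (h2 : ∀ z ∈ π.ker, z ^ 2 = 1) (ρ : Representation k H V)
    (h0 : ∀ u v : H, π u ≠ 1 → π v ≠ 1 → (π u).1.Disjoint (π v).1 → (π u).1.support.card + 5 ≤ r →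
      (ρ u - 1) * (ρ v - 1) ≠ 0) (y a b w g : Perm (Fin r)) (sy : sign y = 1) (sa : sign a = 1) (sb : sign b = 1)
    (sw : sign w = 1) (sg : sign g = 1) (e : y ^ 3 = 1 ∧ a ^ 3 = 1 ∧ b ^ 3 = 1 ∧ a * y * a⁻¹ = y ∧ b * y * b⁻¹ = y ∧
      w * y * w⁻¹ = y ∧ a * b * a⁻¹ = b ∧ w * a * w⁻¹ = b ∧ w * b * w⁻¹ = a⁻¹ ∧ g * y * g⁻¹ = y ^ 2 ∧ g * a * g⁻¹ = a⁻¹ ∧
      g * b * g⁻¹ = b ∧ y ≠ 1 ∧ a ≠ 1 ∧ (∀ i, y i = i ∨ a i = i) ∧ y.support.card + 5 ≤ r) :
    8 ≤ Module.finrank k V := by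
  obtain ⟨e1, e2, e3, e4, e5, e6, e7, e8, e9, e10, e11, e12, e13, e14, e15, e16⟩ := e
  have o : Odd 3 := by decide
  obtain ⟨y', py, hy⟩ := f5_lift hs h2 o (a := ⟨y, mem_alternatingGroup.mpr sy⟩) (Subtype.ext e1)
  obtain ⟨a', pa, ha⟩ := f5_lift hs h2 o (a := ⟨a, mem_alternatingGroup.mpr sa⟩) (Subtype.ext e2)
  obtain ⟨b', pb, hb⟩ := f5_lift hs h2 o (a := ⟨b, mem_alternatingGroup.mpr sb⟩) (Subtype.ext e3)
  obtain ⟨w', pw⟩ := hs ⟨w, mem_alternatingGroup.mpr sw⟩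
  obtain ⟨g', pg⟩ := hs ⟨g, mem_alternatingGroup.mpr sg⟩
  have hi : a'⁻¹ ^ 3 = 1 := by rw [inv_pow, ha, inv_one]
  exact f5_three lw l3 h3 ρ (w := w') (g := g') hy ha hb (f5_cen hc h2 o hy (by rw [pa, py]; exact Subtype.ext e4))
    (f5_cen hc h2 o hy (by rw [pb, py]; exact Subtype.ext e5)) (f5_cen hc h2 o hy (by rw [pw, py]; exact Subtype.ext e6))
    (mul_inv_eq_iff_eq_mul.mp (f5_conj hc h2 o hb hb (by rw [pa, pb]; exact Subtype.ext e7)))
    (f5_conj hc h2 o ha hb (by rw [pw, pa, pb]; exact Subtype.ext e8))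
    (f5_conj hc h2 o hb hi (by rw [map_inv, pw, pa, pb]; exact Subtype.ext e9))
    (f5_conj hc h2 o hy (by rw [← pow_mul, mul_comm, pow_mul, hy, one_pow]) (by rw [map_pow, pg, py]; exact Subtype.ext e10))
    (f5_conj hc h2 o ha hi (by rw [map_inv, pg, pa]; exact Subtype.ext e11))
    (f5_conj hc h2 o hb hb (by rw [pg, pb]; exact Subtype.ext e12))
    (h0 _ _ (fun i => e13 (congrArg Subtype.val (py.symm.trans i))) (fun i => e14 (congrArg Subtype.val (pa.symm.trans i)))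
      (by rw [pa, py]; exact e15) (by rw [py]; exact e16))

theorem e_five (lw : LW.{u}) (l3 : LW3.{u}) (th : TH.{u}) : ∀ (k : Type) [Field k] [IsAlgClosed k] [CharP k 5]
    (V : Type) [AddCommGroup V] [Module k V] [FiniteDimensional k V] (r : ℕ), 9 ≤ r → r ≤ 13 →
    ∀ (H : Type u) [Group H] [Finite H] (π : H →* alternatingGroup (Fin r)),
    Function.Surjective π → π.ker ≤ Subgroup.center H → Group.IsPerfect H →
    ∀ ρ : Representation k H V, (∃ g, ρ g ≠ 1) → bd 5 r ≤ Module.finrank k V := by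
  intro k _ _ _ V _ _ _ r hr hr' H _ _ π hs hc hp ρ hρ
  have : Fact (Nat.Prime 5) := ⟨by norm_num⟩
  by_cases h : ∃ u v : H, π u ≠ 1 ∧ π v ≠ 1 ∧ (π u).1.Disjoint (π v).1 ∧ (π u).1.support.card + 5 ≤ r ∧
      (ρ u - 1) * (ρ v - 1) = 0
  · exact th k 5 V r hr H π hs hc hp ρ hρ h
  have h0 : ∀ u v : H, π u ≠ 1 → π v ≠ 1 → (π u).1.Disjoint (π v).1 → (π u).1.support.card + 5 ≤ r →
      (ρ u - 1) * (ρ v - 1) ≠ 0 := fun u v a b c d e => h ⟨u, v, a, b, c, d, e⟩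
  have h2 := f5_ker hr π hs hc hp
  have h3 : (3 : k) ≠ 0 := fun e => absurd ((CharP.cast_eq_zero_iff k 5 3).mp (by exact_mod_cast e)) (by norm_num)
  have h7 : (7 : k) ≠ 0 := fun e => absurd ((CharP.cast_eq_zero_iff k 5 7).mp (by exact_mod_cast e)) (by norm_num)
  interval_cases r
  iterate 2
    refine le_trans (by decide) (f5_B lw l3 h3 π hs hc h2 ρ h0 (swap 0 1 * swap 1 2) (swap 3 4 * swap 4 5)
      (swap 6 7 * swap 7 8) (swap 3 6 * (swap 4 7 * swap 7 5 * swap 5 8)) (swap 1 2 * swap 4 5) ?_ ?_ ?_ ?_ ?_ ?_)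
    iterate 5 simp [Perm.sign_mul, sign_swap']
    decide +kernel
  all_goals
    refine le_trans (by decide) (f5_A lw h7 π hs hc h2 ρ h0
      (swap 0 1 * swap 1 2 * swap 2 3 * swap 3 4 * swap 4 5 * swap 5 6)
      (swap 1 3 * swap 3 2 * swap 2 6 * swap 6 4 * swap 4 5 * swap 7 8) (swap 7 8 * swap 8 9) (swap 8 9 * swap 9 10)
      ?_ ?_ ?_ ?_ ?_)
    iterate 4 simp [Perm.sign_mul, sign_swap']
    decide +kernel

end Cfsg.Agent.AltL
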