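import Mathlib
import Cfsg.Agent.AltL.Def2
import Cfsg.Agent.S0892

/-!
The induction step of the degree bound for perfect central extensions of alternating groups.
-/

set_option autoImplicit false

namespace Cfsg.Agent.AltL

universe u

open Equiv Equiv.Perm Subgroup
open scoped commutatorElement

theorem e2_ker {r : ℕ} (hr : 9 ≤ r) {H : Type u} [Group H] [Finite H]
    (π : H →* alternatingGroup (Fin r)) (hs : Function.Surjective π)
    (hc : π.ker ≤ Subgroup.center H) (hp : Group.IsPerfect H) :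
    ∀ z, π z = 1 → z ^ 2 = 1 := by
  have h := Cfsg.Agent.S0892.result r (by omega) (by omega) (by omega) π.ker hc
    (by rw [hp.commutator_eq_top]; exact le_top) (QuotientGroup.quotientKerEquivOfSurjective π hs)
  intro z hz
  have h1 : orderOf z ∣ Nat.card π.ker := Subgroup.orderOf_dvd_natCard _ (by exact hz)
  have h0 : 0 < Nat.card π.ker := Nat.card_pos
  rw [← orderOf_dvd_iff_pow_eq_one]
  generalize Nat.card π.ker = n at *
  interval_cases n
  · exact h1.trans (by norm_num)
  · exact h1

theorem e2_uniq {H A : Type*} [Group H] [Group A] (π : H →* A) (hc : π.ker ≤ Subgroup.center H)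
    (h2 : ∀ z, π z = 1 → z ^ 2 = 1) {l : ℕ} (hl : Odd l) {a b : H} (ha : a ^ l = 1) (hb : b ^ l = 1)
    (hab : π a = π b) : a = b := by
  have hz : π (a * b⁻¹) = 1 := by rw [map_mul, map_inv, hab, mul_inv_cancel]
  have hcm : Commute (a * b⁻¹) b := (mem_center_iff.1 (hc hz) b).symm
  have h3 : (a * b⁻¹) ^ l = 1 := by
    have : (a * b⁻¹ * b) ^ l = (a * b⁻¹) ^ l * b ^ l := hcm.mul_pow l
    rw [inv_mul_cancel_right, ha, hb, mul_one] at this
    exact this.symm
  obtain ⟨m, rfl⟩ := hl
  rw [pow_succ, pow_mul, h2 _ hz, one_pow, one_mul, mul_inv_eq_one] at h3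
  exact h3

theorem e2_lift {H A : Type*} [Group H] [Group A] (π : H →* A) (hs : Function.Surjective π)
    (h2 : ∀ z, π z = 1 → z ^ 2 = 1) {l : ℕ} (hl : Odd l) {c : A} (hc : c ^ l = 1) :
    ∃ y, y ^ l = 1 ∧ π y = c := by
  obtain ⟨y, rfl⟩ := hs c
  obtain ⟨m, hm⟩ := hl
  refine ⟨y ^ (l + 1), ?_, by rw [map_pow, pow_succ, hc, one_mul]⟩
  have := h2 (y ^ l) (by rw [map_pow, hc])
  rw [← pow_mul, show (l + 1) * l = l * 2 * (m + 1) by rw [hm]; ring, pow_mul, pow_mul, this, one_pow]

theorem e2_conj {α : Type*} [Fintype α] [DecidableEq α] (c : Perm α) (hc : c.IsCycle) {l : ℕ}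
    (hl : l.Prime) (hcl : c.support.card = l) (h2 : l + 2 ≤ Fintype.card α) (j : ℕ) (h0 : 0 < j)
    (hj : j < l) : ∃ σ : alternatingGroup α, σ.1 * c * σ.1⁻¹ = c ^ j ∧
      c.support.map σ.1.toEmbedding = c.support := by
  have ho : orderOf c = l := hc.orderOf.trans hcl
  have hco : j.Coprime (orderOf c) := by
    rw [ho]; exact (Nat.coprime_of_lt_prime h0.ne' hj hl).symm
  have hs : (c ^ j).support = c.support := support_pow_coprime hco
  obtain ⟨τ, hτ⟩ := isConj_iff.1 (hc.isConj (hc.pow_iff.2 hco) (by rw [hs]))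
  have key : ∀ σ : Perm α, σ * c * σ⁻¹ = c ^ j → c.support.map σ.toEmbedding = c.support :=
    fun σ h => by rw [← support_conj, h, hs]
  rcases Int.units_eq_one_or (Perm.sign τ) with h | h
  · exact ⟨⟨τ, h⟩, hτ, key _ hτ⟩
  · have : 1 < (c.supportᶜ).card := by rw [Finset.card_compl]; omega
    obtain ⟨a, ha, b, hb, hab⟩ := Finset.one_lt_card.1 this
    have hd : (swap a b).Disjoint c := by
      rw [disjoint_iff_disjoint_support, support_swap hab, Finset.disjoint_left]
      intro x hx
      rw [Finset.mem_insert, Finset.mem_singleton] at hx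
      rcases hx with rfl | rfl
      · exact Finset.mem_compl.1 ha
      · exact Finset.mem_compl.1 hb
    have h3 : τ * swap a b * c * (τ * swap a b)⁻¹ = c ^ j := by
      rw [← hτ, mul_assoc τ, hd.commute.eq]; group
    exact ⟨⟨τ * swap a b, by rw [mem_alternatingGroup, map_mul, h, sign_swap hab]; simp⟩, h3, key _ h3⟩

theorem e2_sub {H A C : Type*} [Group H] [Group A] [Group C] (π : H →* A) (hs : Function.Surjective π)
    (hc : π.ker ≤ Subgroup.center H) (ι : C →* A) (hι : Function.Injective ι) [Group.IsPerfect C] :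
    Group.IsPerfect ↥⁅ι.range.comap π, ι.range.comap π⁆ ∧
    ∃ π' : ↥⁅ι.range.comap π, ι.range.comap π⁆ →* C, Function.Surjective π' ∧
      π'.ker ≤ Subgroup.center _ ∧ ∀ x, ι (π' x) = π x := by
  set P := ι.range.comap π with hP
  have hB : (⁅P, P⁆ : Subgroup H).map π = ι.range := by
    rw [Subgroup.map_commutator, hP, map_comap_eq_self_of_surjective hs]
    have := Group.IsPerfect.range ι
    exact Subgroup.commutator_eq_self
  have hle : (⁅P, P⁆ : Subgroup H) ≤ P := Subgroup.commutator_le_self P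
  have hdec : ∀ a ∈ P, ∃ a' ∈ (⁅P, P⁆ : Subgroup H), ∃ z ∈ Subgroup.center H, a = a' * z := by
    intro a ha
    have : π a ∈ (⁅P, P⁆ : Subgroup H).map π := by rw [hB]; exact ha
    obtain ⟨a', h1, h2⟩ := this
    exact ⟨a', h1, a'⁻¹ * a, hc (by rw [MonoidHom.mem_ker, map_mul, map_inv, h2, inv_mul_cancel]),
      by group⟩
  refine ⟨Subgroup.isPerfect_iff.2 (le_antisymm (commutator_mono hle hle) ?_), ?_⟩
  · rw [Subgroup.commutator_le]
    intro a ha b hb
    obtain ⟨a', h1, z, hz, rfl⟩ := hdec a ha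
    obtain ⟨b', h2, w, hw, rfl⟩ := hdec b hb
    have e : ⁅a' * z, b' * w⁆ = ⁅a', b'⁆ := by
      rw [mem_center_iff] at hz hw
      simp only [commutatorElement_def, mul_inv_rev]
      calc a' * z * (b' * w) * (z⁻¹ * a'⁻¹) * (w⁻¹ * b'⁻¹)
          = a' * (z * (b' * w)) * z⁻¹ * (a'⁻¹ * w⁻¹) * b'⁻¹ := by group
        _ = a' * (b' * w * z) * z⁻¹ * (w * a')⁻¹ * b'⁻¹ := by rw [hz (b' * w), mul_inv_rev]
        _ = a' * (b' * w * z) * z⁻¹ * (a' * w)⁻¹ * b'⁻¹ := by rw [hw a']
        _ = a' * b' * a'⁻¹ * b'⁻¹ := by group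
    rw [e]
    exact commutator_mem_commutator h1 h2
  · let f : ↥(⁅P, P⁆ : Subgroup H) →* ι.range :=
      (π.comp (Subgroup.subtype _)).codRestrict ι.range (fun x => hle x.2)
    let e := MonoidHom.ofInjective hι
    have he : ∀ x, ι (e.symm (f x)) = π x := fun x => by
      have := MonoidHom.ofInjective_apply hι (x := e.symm (f x))
      rw [← this]
      show ((e (e.symm (f x)) : ι.range) : A) = _
      rw [e.apply_symm_apply]; rfl
    refine ⟨e.symm.toMonoidHom.comp f, ?_, ?_, he⟩
    · intro c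
      have : ι c ∈ (⁅P, P⁆ : Subgroup H).map π := by rw [hB]; exact ⟨c, rfl⟩
      obtain ⟨a, h1, h2⟩ := this
      exact ⟨⟨a, h1⟩, hι ((he ⟨a, h1⟩).trans h2)⟩
    · intro x hx
      have h1 : π x = 1 := by
        rw [← he x]
        have : e.symm (f x) = 1 := hx
        rw [this, map_one]
      rw [mem_center_iff]
      intro g
      exact Subtype.ext (mem_center_iff.1 (hc h1) g)

theorem e2_step (lw : LW.{u}) (th : TH.{u}) {k : Type} [Field k] [IsAlgClosed k] (p : ℕ)
    [Fact p.Prime] [CharP k p] {V : Type} [AddCommGroup V] [Module k V] [FiniteDimensional k V]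
    {r : ℕ} {H : Type u} [Group H] [Finite H] (π : H →* alternatingGroup (Fin r))
    (hs : Function.Surjective π) (hc : π.ker ≤ Subgroup.center H) (hp : Group.IsPerfect H)
    (ρ : Representation k H V) (hρ : ∃ g, ρ g ≠ 1) {l m : ℕ} (hl : l.Prime) (hlo : Odd l)
    (hlk : (l : k) ≠ 0) (hm : 9 ≤ m) (hr : r = l + m)
    (ih : ∀ (W : Type) [AddCommGroup W] [Module k W] [FiniteDimensional k W]
      (K : Type u) [Group K] [Finite K] (π : K →* alternatingGroup (Fin m)),
      Function.Surjective π → π.ker ≤ Subgroup.center K → Group.IsPerfect K →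
      ∀ ρ : Representation k K W, (∃ g, ρ g ≠ 1) → bd p m ≤ Module.finrank k W) :
    bd p r ≤ Module.finrank k V ∨ (l - 1) * bd p m ≤ Module.finrank k V := by
  classical
  have h2 := e2_ker (by omega) π hs hc hp
  obtain ⟨c, hcc⟩ := (exists_with_cycleType_iff (Fin r) (m := {l})).2
    ⟨by simp; omega, by simpa using hl.two_le⟩
  have hcy : c.IsCycle := card_cycleType_eq_one.1 (by rw [hcc]; simp)
  have hcl : c.support.card = l := by
    have := hcy.cycleType
    rw [hcc] at this
    exact (Multiset.singleton_inj.1 this).symm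
  have hca : c ∈ alternatingGroup (Fin r) := by
    rw [mem_alternatingGroup, hcy.sign, hcl, hlo.neg_one_pow, neg_neg]
  have hcp : (⟨c, hca⟩ : alternatingGroup (Fin r)) ^ l = 1 := by
    apply Subtype.ext
    show c ^ l = 1
    rw [← hcl, ← hcy.orderOf, pow_orderOf_eq_one]
  obtain ⟨y, hy, hyc⟩ := e2_lift π hs h2 hlo hcp
  set s : Finset (Fin r) := c.supportᶜ with hsdef
  have hsc : s.card = m := by rw [hsdef, Finset.card_compl, hcl, Fintype.card_fin]; omega
  let e : Fin m ≃ s := (Finset.equivFinOfCardEq hsc).symm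
  let ι : alternatingGroup (Fin m) →* alternatingGroup (Fin r) :=
    (alternatingGroup.ofSubtype s).comp e.altCongrHom.toMonoidHom
  have hι : Function.Injective ι := alternatingGroup.ofSubtype_injective.comp e.altCongrHom.injective
  have hιr : ∀ a, a ∈ ι.range ↔ a.1.support ⊆ s := by
    intro a
    rw [← alternatingGroup.mem_range_ofSubtype_iff]
    constructor
    · rintro ⟨b, rfl⟩; exact ⟨_, rfl⟩
    · rintro ⟨b, rfl⟩
      obtain ⟨b, rfl⟩ := e.altCongrHom.surjective b
      exact ⟨b, rfl⟩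
  have hpf : Group.IsPerfect (alternatingGroup (Fin m)) :=
    ⟨commutator_alternatingGroup_eq_top (by simp; omega)⟩
  have hsub := e2_sub π hs hc ι hι
  set P := ι.range.comap π with hP
  obtain ⟨hL, π', hs', hc', hπ'⟩ := hsub
  have hle : (⁅P, P⁆ : Subgroup H) ≤ P := Subgroup.commutator_le_self P
  have hdis : ∀ x ∈ P, c.Disjoint (π x).1 := by
    intro x hx
    rw [disjoint_iff_disjoint_support]
    have := (hιr _).1 hx
    exact Finset.disjoint_left.2 fun a ha hb => Finset.mem_compl.1 (this hb) ha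
  by_cases hv : ∃ x ∈ (⁅P, P⁆ : Subgroup H), (ρ y - 1) * (ρ x - 1) ≠ 0
  · right
    refine lw k V H ρ l hl hlk y ⁅P, P⁆ ⁅P, P⁆ _ hy le_rfl ?_ ?_ ?_ hv
    · intro x hx
      have : x * y * x⁻¹ = y := by
        refine e2_uniq π hc h2 hlo (by rw [conj_pow, hy]; simp) hy ?_
        rw [map_mul, map_mul, map_inv, mul_inv_eq_iff_eq_mul, hyc]
        exact Subtype.ext (hdis x (hle hx)).commute.eq.symm
      rw [mul_inv_eq_iff_eq_mul] at this
      exact this
    · intro j h0 hj
      obtain ⟨σ, hσ, hσs⟩ := e2_conj c hcy hl hcl (by simp; omega) j h0 hj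
      obtain ⟨g, rfl⟩ := hs σ
      refine ⟨g, ?_, ?_⟩
      · refine e2_uniq π hc h2 hlo (by rw [conj_pow, hy]; simp)
          (by rw [← pow_mul, mul_comm, pow_mul, hy, one_pow]) ?_
        rw [map_mul, map_mul, map_inv, map_pow, hyc]
        exact Subtype.ext hσ
      · have hg : g ∈ Subgroup.normalizer (P : Set H) := by
          rw [Subgroup.mem_normalizer_iff]
          intro x
          show π x ∈ ι.range ↔ π (g * x * g⁻¹) ∈ ι.range
          rw [hιr, hιr, map_mul, map_mul, map_inv]
          show _ ↔ ((π g).1 * (π x).1 * (π g).1⁻¹).support ⊆ s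
          rw [support_conj]
          have hm' : ∀ a, (π g).1 a ∈ s ↔ a ∈ s := by
            intro a
            rw [hsdef, Finset.mem_compl, Finset.mem_compl]
            conv_lhs => rw [← hσs]
            exact not_congr (Finset.mem_map' _)
          constructor
          · intro h b hb
            obtain ⟨a, ha, rfl⟩ := Finset.mem_map.1 hb
            exact (hm' a).2 (h ha)
          · intro h a ha
            exact (hm' a).1 (h (Finset.mem_map_of_mem _ ha))
        have hmap : P.map (MulAut.conj g).toMonoidHom = P :=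
          Subgroup.mem_normalizer_iff_map_conj_eq.1 hg
        have hmap2 : (⁅P, P⁆ : Subgroup H).map (MulAut.conj g).toMonoidHom = ⁅P, P⁆ := by
          rw [Subgroup.map_commutator, hmap]
        exact Subgroup.mem_normalizer_iff.1 (Subgroup.mem_normalizer_iff_map_conj_eq.2 hmap2)
    · intro U hU ⟨x, hx, v, hv, hxv⟩
      refine ih U _ π' hs' hc' hL
        (Representation.subrepresentation (ρ.comp (Subgroup.subtype _)) U
          (fun g w hw => hU g g.2 w hw)) ⟨⟨x, hx⟩, fun h => hxv ?_⟩
      exact congrArg Subtype.val (LinearMap.congr_fun h ⟨v, hv⟩)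
  · left
    push Not at hv
    have : Nontrivial (alternatingGroup (Fin m)) :=
      alternatingGroup.nontrivial_of_three_le_card (by simp; omega)
    obtain ⟨a, ha⟩ := exists_ne (1 : alternatingGroup (Fin m))
    obtain ⟨x, rfl⟩ := hs' a
    refine th k p V r (by omega) H π hs hc hp ρ hρ ⟨y, x, ?_, ?_, ?_, ?_, hv x x.2⟩
    · rw [hyc]
      exact fun h => hcy.ne_one (congrArg Subtype.val h)
    · rw [← hπ']
      exact fun h => ha (hι (h.trans (map_one ι).symm))
    · rw [hyc]; exact hdis x (hle x.2)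
    · rw [hyc]; show c.support.card + 5 ≤ r; omega

/-- the induction step; `hs` is `TC` for `r ≤ 13` -/
theorem e_big (lw : LW.{u}) (th : TH.{u})
    (hs : ∀ (k : Type) [Field k] [IsAlgClosed k] (p : ℕ) [Fact p.Prime] [CharP k p]
      (V : Type) [AddCommGroup V] [Module k V] [FiniteDimensional k V] (r : ℕ), 9 ≤ r → r ≤ 13 →
      ∀ (H : Type u) [Group H] [Finite H] (π : H →* alternatingGroup (Fin r)),
      Function.Surjective π → π.ker ≤ Subgroup.center H → Group.IsPerfect H →
      ∀ ρ : Representation k H V, (∃ g, ρ g ≠ 1) → bd p r ≤ Module.finrank k V) : TC.{u} := by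
  intro k _ _ p hp _ V _ _ _ r
  induction r using Nat.strong_induction_on generalizing V with
  | _ r ih =>
  intro hr H _ _ π h1 h2 h3 ρ h4
  by_cases h13 : r ≤ 13
  · exact hs k p V r hr h13 H π h1 h2 h3 ρ h4
  have b1 : ∀ n, bd p n ≤ n - 1 := fun n => by unfold bd; omega
  have b2 : ∀ n, n - 2 ≤ bd p n := fun n => by unfold bd; split_ifs <;> omega
  by_cases h3p : p = 3
  · have := e2_step lw th p π h1 h2 h3 ρ h4 (l := 5) (m := r - 5) (by norm_num) (by decide)
      (by
        rw [Ne, CharP.cast_eq_zero_iff k p, h3p]; norm_num) (by omega) (by omega)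
      (fun W _ _ _ => ih (r - 5) (by omega) W (by omega))
    have := b1 r; have := b2 (r - 5)
    omega
  · have := e2_step lw th p π h1 h2 h3 ρ h4 (l := 3) (m := r - 3) (by norm_num) (by decide)
      (by
        rw [Ne, CharP.cast_eq_zero_iff k p, Nat.prime_dvd_prime_iff_eq hp.out Nat.prime_three]
        exact h3p) (by omega) (by omega)
      (fun W _ _ _ => ih (r - 3) (by omega) W (by omega))
    have := b1 r; have := b2 (r - 3)
    omega

end Cfsg.Agent.AltL
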