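import Mathlib
import Cfsg.Agent.AltL.Def2

/-!
From one disjoint pair with vanishing double commutator to all disjoint pairs of `3`-cycles.
-/

set_option autoImplicit false

namespace Cfsg.Agent.AltL

open Equiv Equiv.Perm

/-- extension by the identity, on alternating groups -/
def tgExt {r : ℕ} (p : Fin r → Prop) [DecidablePred p] :
    alternatingGroup (Subtype p) →* alternatingGroup (Fin r) :=
  ((Perm.ofSubtype : Perm (Subtype p) →* Perm (Fin r)).comp (alternatingGroup (Subtype p)).subtype).codRestrict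
    (alternatingGroup (Fin r)) fun g => by
      rw [Perm.mem_alternatingGroup]
      exact (Perm.sign_ofSubtype g.1).trans (Perm.mem_alternatingGroup.1 g.2)

theorem tgExt_val {r : ℕ} (p : Fin r → Prop) [DecidablePred p] (g : alternatingGroup (Subtype p)) :
    (tgExt p g).1 = Perm.ofSubtype g.1 := rfl

theorem tg_lift {r : ℕ} (u v : alternatingGroup (Fin r)) (h : u.1.Disjoint v.1) :
    ∃ g : alternatingGroup {x : Fin r // u.1 x = x}, tgExt (fun x => u.1 x = x) g = v := by
  have h2 : ∀ x, v.1 x ≠ x → u.1 x = x := fun x hx => (h x).resolve_right hx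
  have h1 : ∀ x, u.1 (v.1 x) = v.1 x ↔ u.1 x = x := by
    intro x
    by_cases hx : v.1 x = x
    · rw [hx]
    · have : v.1 (v.1 x) ≠ v.1 x := fun e => hx (v.1.injective e)
      exact ⟨fun _ => h2 x hx, fun _ => h2 _ this⟩
  refine ⟨⟨v.1.subtypePerm h1, ?_⟩, ?_⟩
  · rw [Perm.mem_alternatingGroup]
    exact (Perm.sign_subtypePerm v.1 h1 h2).trans (Perm.mem_alternatingGroup.1 v.2)
  · apply Subtype.ext
    rw [tgExt_val]
    exact Perm.ofSubtype_subtypePerm h1 h2

theorem tg_comm {r : ℕ} (u : alternatingGroup (Fin r)) (g : alternatingGroup {x : Fin r // u.1 x = x}) :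
    u * tgExt (fun x => u.1 x = x) g = tgExt (fun x => u.1 x = x) g * u := by
  apply Subtype.ext
  have : u.1.Disjoint (tgExt (fun x => u.1 x = x) g).1 := by
    intro x
    by_cases hx : u.1 x = x
    · exact Or.inl hx
    · right
      rw [tgExt_val]
      exact Perm.ofSubtype_apply_of_not_mem g.1 hx
  exact this.commute.eq

theorem tg_step {R : Type} [Ring R] {r : ℕ} (ρ : alternatingGroup (Fin r) →* R)
    (u v : alternatingGroup (Fin r)) (hv : v ≠ 1) (hd : u.1.Disjoint v.1)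
    (hc : u.1.support.card + 5 ≤ r) (h0 : (ρ u - 1) * (ρ v - 1) = 0)
    (g : alternatingGroup (Fin r)) (hg : u.1.Disjoint g.1) : (ρ u - 1) * (ρ g - 1) = 0 := by
  let φ := tgExt (fun x : Fin r => u.1 x = x)
  have hcard : 5 ≤ Nat.card {x : Fin r // u.1 x = x} := by
    have e : Nat.card {x : Fin r // u.1 x = x} = (u.1.supportᶜ).card := by
      rw [Nat.card_eq_fintype_card, Fintype.card_subtype]
      congr 1
      ext x
      simp
    rw [e, Finset.card_compl, Fintype.card_fin]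
    omega
  have hs := alternatingGroup.isSimpleGroup hcard
  let N : Subgroup (alternatingGroup {x : Fin r // u.1 x = x}) :=
    { carrier := {g | (ρ u - 1) * (ρ (φ g) - 1) = 0}
      one_mem' := by simp
      mul_mem' := by
        intro a b ha hb
        have ha' : (ρ u - 1) * (ρ (φ a) - 1) = 0 := ha
        have hb' : (ρ u - 1) * (ρ (φ b) - 1) = 0 := hb
        show (ρ u - 1) * (ρ (φ (a * b)) - 1) = 0
        have : ρ (φ (a * b)) - 1 = (ρ (φ a) - 1) * ρ (φ b) + (ρ (φ b) - 1) := by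
          rw [map_mul, map_mul]; noncomm_ring
        rw [this, mul_add, ← mul_assoc, ha', hb']; simp
      inv_mem' := by
        intro a ha
        have ha' : (ρ u - 1) * (ρ (φ a) - 1) = 0 := ha
        show (ρ u - 1) * (ρ (φ a⁻¹) - 1) = 0
        have e : ρ (φ a) * ρ (φ a⁻¹) = 1 := by rw [← map_mul, ← map_mul]; simp
        have : ρ (φ a⁻¹) - 1 = -((ρ (φ a) - 1) * ρ (φ a⁻¹)) := by
          rw [sub_mul, e]; simp
        rw [this, mul_neg, ← mul_assoc, ha']; simp }
  have hN : N.Normal := ⟨by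
    intro a ha x
    have ha' : (ρ u - 1) * (ρ (φ a) - 1) = 0 := ha
    show (ρ u - 1) * (ρ (φ (x * a * x⁻¹)) - 1) = 0
    have e : ρ (φ x) * ρ (φ x⁻¹) = 1 := by rw [← map_mul, ← map_mul]; simp
    have c : ρ u * ρ (φ x) = ρ (φ x) * ρ u := by rw [← map_mul, ← map_mul, tg_comm]
    have h1 : ρ (φ (x * a * x⁻¹)) - 1 = ρ (φ x) * (ρ (φ a) - 1) * ρ (φ x⁻¹) := by
      rw [map_mul, map_mul, map_mul, map_mul, mul_sub, sub_mul, mul_one, e]
    have h2 : (ρ u - 1) * ρ (φ x) = ρ (φ x) * (ρ u - 1) := by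
      rw [sub_mul, mul_sub, c]; simp
    rw [h1, ← mul_assoc, ← mul_assoc, h2, mul_assoc (ρ (φ x)), ha']; simp⟩
  obtain ⟨v', rfl⟩ := tg_lift u v hd
  obtain ⟨g', rfl⟩ := tg_lift u g hg
  rcases hN.eq_bot_or_eq_top with h | h
  · exfalso
    have : v' ∈ N := h0
    rw [h, Subgroup.mem_bot] at this
    exact hv (by rw [this, map_one])
  · have : g' ∈ N := h ▸ Subgroup.mem_top g'
    exact this

theorem tg_swap {R : Type} [Ring R] {r : ℕ} (ρ : alternatingGroup (Fin r) →* R)
    (u v : alternatingGroup (Fin r)) (hd : u.1.Disjoint v.1) (h0 : (ρ u - 1) * (ρ v - 1) = 0) :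
    (ρ v - 1) * (ρ u - 1) = 0 := by
  have c : u * v = v * u := Subtype.ext hd.commute.eq
  have c' : ρ u * ρ v = ρ v * ρ u := by rw [← map_mul, ← map_mul, c]
  rw [← h0]
  simp only [sub_mul, mul_sub, c']
  noncomm_ring

theorem tg : TG := by
  intro R _ r hr ρ ⟨u₀, v₀, hu, hv, hd, hc, h0⟩ u v tu tv huv
  have h3 : 2 < (u₀.1.supportᶜ).card := by
    rw [Finset.card_compl, Fintype.card_fin]; omega
  obtain ⟨a, b, c, ha, hb, hc', ab, ac, bc⟩ := Finset.two_lt_card_iff.1 h3
  simp only [Finset.mem_compl, Perm.mem_support, not_not] at ha hb hc'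
  have t3 := Perm.isThreeCycle_swap_mul_swap_same ab ac bc
  let w : alternatingGroup (Fin r) := ⟨swap a b * swap a c, t3.mem_alternatingGroup⟩
  have hw : u₀.1.Disjoint w.1 := by
    intro x
    by_cases hx : u₀.1 x = x
    · exact Or.inl hx
    · right
      have xa : x ≠ a := fun e => hx (e ▸ ha)
      have xb : x ≠ b := fun e => hx (e ▸ hb)
      have xc : x ≠ c := fun e => hx (e ▸ hc')
      show (swap a b * swap a c) x = x
      rw [Perm.mul_apply, swap_apply_of_ne_of_ne xa xc, swap_apply_of_ne_of_ne xa xb]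
  have s1 := tg_swap ρ _ _ hw (tg_step ρ u₀ v₀ hv hd hc h0 w hw)
  have hw3 : w.1.support.card + 5 ≤ r := by
    have : w.1.support.card = 3 := t3.card_support
    omega
  have s2 := tg_step ρ w u₀ hu hw.symm hw3 s1
  have hcj : IsConj w u := by
    apply alternatingGroup.isThreeCycle_isConj _ t3 tu
    simp; omega
  obtain ⟨x, hx⟩ := isConj_iff.1 hcj
  have hdis : w.1.Disjoint (x⁻¹ * v * x).1 := by
    have := huv.conj x⁻¹.1
    have e1 : x⁻¹.1 * u.1 * x⁻¹.1⁻¹ = w.1 := by
      rw [← hx]; simp [mul_assoc]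
    have e2 : x⁻¹.1 * v.1 * x⁻¹.1⁻¹ = (x⁻¹ * v * x).1 := by simp
    rwa [e1, e2] at this
  have s3 := s2 _ hdis
  have e : ρ x * ρ x⁻¹ = 1 := by rw [← map_mul]; simp
  have e' : ρ x⁻¹ * ρ x = 1 := by rw [← map_mul]; simp
  have hu' : ρ u - 1 = ρ x * (ρ w - 1) * ρ x⁻¹ := by
    rw [← hx, map_mul, map_mul, mul_sub, sub_mul, mul_one, e]
  have hv' : ρ x⁻¹ * (ρ v - 1) = (ρ (x⁻¹ * v * x) - 1) * ρ x⁻¹ := by
    rw [map_mul, map_mul, mul_sub, sub_mul, mul_assoc _ (ρ x), e]; simp
  rw [hu', mul_assoc, hv', ← mul_assoc, mul_assoc (ρ x), s3]; simp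

end Cfsg.Agent.AltL
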