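import Mathlib
import Cfsg.Agent.AltL.Def2
import Cfsg.Agent.H2.SchurAlt

/-! The degree bound for perfect central extensions with a vanishing double commutator. -/

set_option autoImplicit false

namespace Cfsg.Agent.AltL
open Subgroup Equiv Cfsg.Agent.H2.Schur Cfsg.Agent.H2.Carm
open scoped commutatorElement

universe u

section
variable {α : Type*} [Fintype α] [DecidableEq α] {H : Type*} [Group H]

theorem th_ker (h : 8 ≤ Fintype.card α) {σ : H →* alternatingGroup α} (hσ : IsStemExtension σ) :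
    ∃ (a b : α) (hab : a ≠ b) (t : Idx a b → H) (z : H), σ.ker = zpowers z ∧ z ^ 2 = 1 ∧
      (∀ c, σ (t c) = cyc hab c) ∧ (∀ c, t c ^ 3 = 1) ∧ ∀ c d, c ≠ d → (t c * t d) ^ 2 = z := by
  obtain ⟨a, b, hab, t, z, hz, hz2, h1, h3, h2⟩ := exists_lifts h (cext_of_stem hσ)
  have hN : zpowers z ≤ σ.ker := zpowers_le.2 hz
  have := normal_of_le_center (hN.trans hσ.2.1)
  obtain ⟨ψ, hψ⟩ := exists_hom hab (fun c => QuotientGroup.mk' (zpowers z) (t c))
    (fun c => by rw [← map_pow, h3, map_one]) fun c d hcd => by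
      rw [← map_mul, ← map_pow, h2 c d hcd]
      exact (QuotientGroup.eq_one_iff _).2 (mem_zpowers z)
  have h4 := ker_eq_bot_of_section (s := ψ) (stem_quotient (cext_of_stem hσ) _ hN
    (by rw [skr_eq_ker hσ, sup_eq_right.2 hN])) (MonoidHom.eq_of_eqOn_dense (closure_cyc hab) (by
      rintro _ ⟨c, rfl⟩
      rw [MonoidHom.comp_apply, hψ]
      exact h1 c))
  rw [QuotientGroup.ker_lift, Subgroup.map_eq_bot_iff, QuotientGroup.ker_mk'] at h4
  exact ⟨a, b, hab, t, z, le_antisymm h4 hN, hz2, h1, h3, h2⟩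

theorem th_mem (h : 8 ≤ Fintype.card α) {π : H →* alternatingGroup α} (hσ : IsStemExtension π)
    {M : Subgroup H} {u v : H} (hM : ∀ g m, Commute g u → m ∈ M → g * m * g⁻¹ ∈ M) (hv : v ∈ M)
    (hv1 : π v ≠ 1) (hd : (π u).1.Disjoint (π v).1)
    (hc : (π u).1.support.card + 5 ≤ Fintype.card α) : π.ker ≤ M := by
  obtain ⟨a, b, hab, t, z, hz, hz2, h1, h3, h2⟩ := th_ker h hσ
  let s : Finset α := (π u).1.supportᶜ
  have hs : 5 ≤ Fintype.card s := by
    rw [Fintype.card_coe, Finset.card_compl]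
    omega
  have := perfect_alt hs
  have := alternatingGroup.isSimpleGroup (α := s) (by simpa using hs)
  have comm : ∀ g c, π g = alternatingGroup.ofSubtype s c → Commute g u := fun g c e =>
    commute_of_perfect (cext_of_stem hσ) (alternatingGroup.ofSubtype s) (fun g =>
      Subtype.ext (Perm.Disjoint.commute (Perm.disjoint_iff_disjoint_support.2
        (Finset.disjoint_of_subset_left ((alternatingGroup.mem_range_ofSubtype_iff s _).1 ⟨g, rfl⟩)
          disjoint_compl_left))).eq) Group.IsPerfect.mem_commutator e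
  have hN : ((M.map π).comap (alternatingGroup.ofSubtype s)).Normal := ⟨fun n hn c => by
    obtain ⟨m, hm, e⟩ := hn
    obtain ⟨g, hg⟩ := hσ.1 (alternatingGroup.ofSubtype s c)
    exact ⟨g * m * g⁻¹, hM g m (comm g c hg) hm, by simp [hg, e]⟩⟩
  obtain ⟨c₀, e₀⟩ := (alternatingGroup.mem_range_ofSubtype_iff s (π v)).2
    (Finset.subset_compl_iff_disjoint_left.2 (Perm.disjoint_iff_disjoint_support.1 hd))
  have htop := hN.eq_bot_or_eq_top.resolve_left fun hb => hv1 (by
    have : c₀ ∈ (M.map π).comap (alternatingGroup.ofSubtype s) := ⟨v, hv, e₀.symm⟩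
    rw [hb, mem_bot] at this
    rw [← e₀, this, map_one])
  have three : ∀ x : H, x ^ 3 = 1 → (π x).1.support ⊆ s → x ∈ M := fun x hx hxs => by
    obtain ⟨c, e⟩ := (alternatingGroup.mem_range_ofSubtype_iff s (π x)).2 hxs
    obtain ⟨m, hm, e'⟩ : c ∈ (M.map π).comap (alternatingGroup.ofSubtype s) := htop ▸ mem_top c
    obtain ⟨k, hk, hk1, rfl⟩ := exists_central_of_map_eq hσ.2.1 (e'.trans e)
    have hk2 : k ^ 2 = 1 := by
      obtain ⟨n, rfl⟩ : k ∈ zpowers z := hz ▸ hk1
      change (z ^ n) ^ 2 = 1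
      rw [← zpow_natCast, ← zpow_mul, mul_comm, zpow_mul, zpow_natCast, hz2, one_zpow]
    have h4 : m * k = m ^ 4 := by
      calc m * k = (m * k) ^ 4 := by rw [pow_succ, hx, one_mul]
        _ = m ^ 4 * (k ^ 2) ^ 2 := by
          rw [(show Commute m k from mem_center_iff.1 hk m).mul_pow, ← pow_mul]
        _ = m ^ 4 := by rw [hk2, one_pow, mul_one]
    exact h4 ▸ pow_mem hm 4
  obtain ⟨c, hc', d, hd', hcd⟩ := Finset.one_lt_card.1 (show 1 < ({a, b}ᶜ : Finset α).card by
    have : ({a, b} : Finset α).card ≤ 2 := Finset.card_le_two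
    rw [Finset.card_compl]
    omega)
  simp only [Finset.mem_compl, Finset.mem_insert, Finset.mem_singleton, not_or] at hc' hd'
  have := alternatingGroup.isMultiplyPretransitive α
  have : MulAction.IsMultiplyPretransitive (alternatingGroup α) α 4 :=
    MulAction.isMultiplyPretransitive_of_le (n := Nat.card α - 2) (by simp; omega) (Nat.sub_le _ _)
  have key : Function.Injective ![a, b, c, d] := by
    rw [← List.nodup_ofFn]
    simp [hab, Ne.symm hc'.1, Ne.symm hc'.2, Ne.symm hd'.1, Ne.symm hd'.2, hcd]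
  obtain ⟨f⟩ := exists_three_of_card (α := s) (show 4 ≤ Fintype.card s by omega)
  obtain ⟨g, hg⟩ := MulAction.exists_smul_eq (alternatingGroup α)
    (⟨_, key⟩ : Fin 4 ↪ α) (f.trans (Function.Embedding.subtype _))
  have hg' : ∀ i, g.1 (![a, b, c, d] i) ∈ s := fun i =>
    (show g.1 (![a, b, c, d] i) = f i from DFunLike.congr_fun hg i) ▸ (f i).2
  obtain ⟨y, rfl⟩ := hσ.1 g
  have hy : ∀ e : Idx a b, (π y).1 e ∈ s → y * t e * y⁻¹ ∈ M := fun e he => three _
    (by rw [conj_pow, h3, mul_one, mul_inv_cancel]) (by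
      rw [map_mul, map_mul, map_inv, h1, coe_mul, coe_mul, coe_inv, Perm.support_conj]
      intro x hx
      obtain ⟨w, hw, rfl⟩ := Finset.mem_map.1 hx
      have := support_cyc hab e hw
      simp only [Finset.mem_insert, Finset.mem_singleton] at this
      rcases this with rfl | rfl | rfl
      exacts [hg' 0, hg' 1, he])
  let c' : Idx a b := ⟨c, Ne.symm hc'.1, Ne.symm hc'.2⟩
  let d' : Idx a b := ⟨d, Ne.symm hd'.1, Ne.symm hd'.2⟩
  have h5 := pow_mem (mul_mem (hy c' (hg' 2)) (hy d' (hg' 3))) 2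
  rw [show y * t c' * y⁻¹ * (y * t d' * y⁻¹) = y * (t c' * t d') * y⁻¹ by group, conj_pow,
    h2 c' d' (fun e => hcd (congrArg Subtype.val e)),
    mem_center_iff.1 (hσ.2.1 (show z ∈ π.ker from hz ▸ mem_zpowers z)) y,
    mul_inv_cancel_right] at h5
  rw [hz]
  exact zpowers_le.2 h5

/-- the elements absorbed by a ring element -/
def thSt {R : Type*} [Monoid R] (ρ : H →* R) (X : R) : Subgroup H where
  carrier := {g | X * ρ g = X}
  one_mem' := by simp
  mul_mem' := fun {a b} ha hb => by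
    simp only [Set.mem_ofPred_eq] at *
    rw [map_mul, ← mul_assoc, ha, hb]
  inv_mem' := fun {a} ha => by
    simp only [Set.mem_ofPred_eq] at *
    calc X * ρ a⁻¹ = X * ρ a * ρ a⁻¹ := by rw [ha]
      _ = X := by rw [mul_assoc, ← map_mul, mul_inv_cancel, map_one, mul_one]

theorem thSt_conj {R : Type*} [Ring R] {ρ : H →* R} {g u m : H} (h : Commute g u)
    (hm : m ∈ thSt ρ (ρ u - 1)) : g * m * g⁻¹ ∈ thSt ρ (ρ u - 1) := by
  have h1 : (ρ u - 1) * ρ g = ρ g * (ρ u - 1) := by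
    rw [sub_mul, mul_sub, ← map_mul, ← map_mul, h.eq, one_mul, mul_one]
  have h2 : (ρ u - 1) * ρ m = ρ u - 1 := hm
  change (ρ u - 1) * ρ (g * m * g⁻¹) = ρ u - 1
  rw [map_mul, map_mul, ← mul_assoc, ← mul_assoc, h1, mul_assoc (ρ g), h2, ← h1, mul_assoc,
    ← map_mul, mul_inv_cancel, map_one, mul_one]

theorem th_lift {Q M : Type*} [Group Q] [Monoid M] {π : H →* Q} (hs : Function.Surjective π)
    (φ : H →* M) (hk : π.ker ≤ φ.ker) : ∃ ψ : Q →* M, ∀ g, ψ (π g) = φ g :=
  ⟨(QuotientGroup.lift π.ker φ hk).comp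
    (QuotientGroup.quotientKerEquivOfSurjective π hs).symm.toMonoidHom, fun g => by
      have : (QuotientGroup.quotientKerEquivOfSurjective π hs).symm (π g) = g :=
        (MulEquiv.symm_apply_eq _).2 rfl
      rw [MonoidHom.comp_apply, MulEquiv.coe_toMonoidHom, this]
      rfl⟩

end

theorem th (hb : TB) (hg : TG) : TH.{u} := by
  intro k _ p _ _ V _ _ _ r hr H _ _ π hs hc hp ρ ⟨g₀, hg₀⟩ ⟨u, v, hu, hv, hd, hcard, h0⟩
  have hσ : IsStemExtension π := ⟨hs, hc, fun _ _ => Group.IsPerfect.mem_commutator⟩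
  have := alternatingGroup.isSimpleGroup (α := Fin r) (by simp; omega)
  have hK : π.ker ≤ thSt ρ (ρ u - 1) := th_mem (by simp; omega) hσ (fun _ _ => thSt_conj)
    (show (ρ u - 1) * ρ v = ρ u - 1 by rwa [mul_sub, mul_one, sub_eq_zero] at h0) hv hd (by simpa)
  have hz : ∀ z ∈ π.ker, ∀ g, (ρ z - 1) * ρ g = ρ z - 1 := fun z hz g => by
    have hN : (thSt ρ (ρ z - 1)).Normal := ⟨fun m hm g => thSt_conj (mem_center_iff.1 (hc hz) g) hm⟩
    have hu' : u ∈ thSt ρ (ρ z - 1) := by
      have h1 : (ρ u - 1) * ρ z = ρ u - 1 := hK hz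
      change (ρ z - 1) * ρ u = ρ z - 1
      rw [sub_mul, ← map_mul, ← mem_center_iff.1 (hc hz) u, one_mul]
      rw [sub_mul, ← map_mul, one_mul] at h1
      rw [sub_eq_iff_eq_add.1 h1]
      abel
    have h2 := (hN.map π hs).eq_bot_or_eq_top.resolve_left fun h => hu (by
      have := mem_map_of_mem π hu'
      rwa [h, mem_bot] at this)
    have h3 : commutator H ≤ thSt ρ (ρ z - 1) := commutator_le.2 fun x _ y _ => by
      obtain ⟨m, hm, e⟩ : π x ∈ (thSt ρ (ρ z - 1)).map π := h2 ▸ mem_top _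
      obtain ⟨c, hc', -, rfl⟩ := exists_central_of_map_eq hc e
      rw [comm_mul_central_left hc', commutatorElement_def, mul_assoc, mul_assoc, ← mul_assoc y]
      exact mul_mem hm (hN.conj_mem _ (inv_mem hm) y)
    exact h3 Group.IsPerfect.mem_commutator
  let W : Submodule k V := ⨅ z : π.ker, LinearMap.ker (ρ z - 1)
  have hW : ∀ w, w ∈ W ↔ ∀ z ∈ π.ker, (ρ z - 1) w = 0 := fun w => by simp [W]
  have hz' : ∀ z ∈ π.ker, ∀ g x, (ρ z - 1) (ρ g x) = (ρ z - 1) x := fun z h g x =>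
    DFunLike.congr_fun (hz z h g) x
  have hle : ∀ g, W ≤ W.comap (ρ g) := fun g w hw =>
    (hW _).2 fun z h => (hz' z h g w).trans ((hW _).1 hw z h)
  obtain ⟨ψ, hψ⟩ := th_lift hs (ρ.subrepresentation W hle) fun z h => LinearMap.ext fun w =>
    Subtype.ext (sub_eq_zero.1 ((hW _).1 w.2 z h))
  refine (hb k p W r hr ψ ?_ (hg _ r hr ψ ⟨π u, π v, hu, hv, hd, hcard, ?_⟩)).trans
    (Submodule.finrank_le W)
  · by_contra! hn
    have h1 : ∀ g, ∀ w ∈ W, ρ g w = w := fun g w hw =>
      congrArg Subtype.val (DFunLike.congr_fun ((hψ g).symm.trans (hn _)) (⟨w, hw⟩ : W))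
    have h2 : ∀ g h x, ρ g (ρ h x) = ρ g x + ρ h x - x := fun g h x => by
      have := h1 g (ρ h x - x) ((hW _).2 fun z hz => by rw [map_sub, hz' z hz, sub_self])
      rw [map_sub, sub_eq_iff_eq_add] at this
      rw [this]
      abel
    have h3 : commutator H ≤ MonoidHom.ker ρ := commutator_le.2 fun x _ y _ => by
      have : ρ (x * y) = ρ (y * x) := LinearMap.ext fun w => by
        rw [map_mul, map_mul, Module.End.mul_apply, Module.End.mul_apply, h2, h2 y, add_comm]
      rw [MonoidHom.mem_ker, show ⁅x, y⁆ = x * y * (y * x)⁻¹ by group, map_mul, this, ← map_mul,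
        mul_inv_cancel, map_one]
    exact hg₀ (h3 Group.IsPerfect.mem_commutator)
  · rw [hψ, hψ]
    exact LinearMap.ext fun w => Subtype.ext (DFunLike.congr_fun h0 w.1)

end Cfsg.Agent.AltL
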