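import Mathlib
import Cfsg.Agent.AltL.Def2

/-!
Eigenspace counts for elements of prime order.
-/

set_option autoImplicit false

namespace Cfsg.Agent.AltL

universe u

section
variable {k : Type} [Field k] {V : Type} [AddCommGroup V] [Module k V] [FiniteDimensional k V]

theorem w_sum {ι : Type} [Fintype ι] [DecidableEq ι] (E : ι → Submodule k V) (hE : iSupIndep E) :
    ∑ i, Module.finrank k (E i) ≤ Module.finrank k V := by
  rw [← Module.finrank_directSum]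
  exact LinearMap.finrank_le_finrank_of_injective (f := DirectSum.coeLinearMap E)
    hE.dfinsupp_lsum_injective

theorem w_joint [Infinite k] (T₁ T₂ : Module.End k V) (s : Finset (k × k))
    (hv : ∀ p ∈ s, ∃ v : V, v ≠ 0 ∧ T₁ v = p.1 • v ∧ T₂ v = p.2 • v) :
    s.card ≤ Module.finrank k V := by
  classical
  obtain ⟨c, hc⟩ := Infinite.exists_notMem_finset
    ((s ×ˢ s).image fun q : (k × k) × (k × k) => (q.1.1 - q.2.1) / (q.2.2 - q.1.2))
  choose! v hv0 hv1 hv2 using hv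
  have hli : LinearIndependent k (fun p : s => v p.1) := by
    refine Module.End.eigenvectors_linearIndependent' (T₁ + c • T₂)
      (fun p : s => p.1.1 + c * p.1.2) ?_ _ ?_
    · intro p q h
      simp only at h
      by_cases h2 : p.1.2 = q.1.2
      · rw [h2] at h
        exact Subtype.ext (Prod.ext (add_right_cancel h) h2)
      · exfalso
        apply hc
        refine Finset.mem_image.2 ⟨(p.1, q.1), Finset.mem_product.2 ⟨p.2, q.2⟩, ?_⟩
        have : q.1.2 - p.1.2 ≠ 0 := sub_ne_zero.2 (Ne.symm h2)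
        rw [div_eq_iff this]
        linear_combination h
    · intro p
      refine ⟨Module.End.mem_eigenspace_iff.2 ?_, hv0 _ p.2⟩
      simp [hv1 _ p.2, hv2 _ p.2, add_smul, smul_smul]
  simpa using hli.fintype_card_le_finrank

theorem w_joint' [Infinite k] (T₁ T₂ : Module.End k V) {l : ℕ} {ζ : k} (hζ : IsPrimitiveRoot ζ l)
    (s : Finset (ℕ × ℕ)) (hs : ∀ p ∈ s, p.1 < l ∧ p.2 < l)
    (hv : ∀ p ∈ s, ∃ v : V, v ≠ 0 ∧ T₁ v = ζ ^ p.1 • v ∧ T₂ v = ζ ^ p.2 • v) :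
    s.card ≤ Module.finrank k V := by
  classical
  have h := w_joint T₁ T₂ (s.image fun p => (ζ ^ p.1, ζ ^ p.2)) (by
    intro q hq
    obtain ⟨p, hp, rfl⟩ := Finset.mem_image.1 hq
    exact hv p hp)
  rwa [Finset.card_image_of_injOn] at h
  intro p hp q hq e
  have e' := Prod.ext_iff.1 e
  exact Prod.ext (hζ.pow_inj (hs p hp).1 (hs q hq).1 e'.1) (hζ.pow_inj (hs p hp).2 (hs q hq).2 e'.2)

theorem w_eig [IsAlgClosed k] (T : Module.End k V) (W : Submodule k V) (hW : W ≠ ⊥)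
    (hT : ∀ v ∈ W, T v ∈ W) : ∃ (a : k) (v : V), v ∈ W ∧ v ≠ 0 ∧ T v = a • v := by
  have : Nontrivial W := Submodule.nontrivial_iff_ne_bot.2 hW
  obtain ⟨a, ha⟩ := Module.End.exists_eigenvalue (T.restrict hT)
  obtain ⟨v, hv⟩ := ha.exists_hasEigenvector
  refine ⟨a, v.1, v.2, fun h => hv.2 (Subtype.ext h), ?_⟩
  have := congrArg Subtype.val hv.apply_eq_smul
  simpa using this

theorem w_eig2 [IsAlgClosed k] (T₁ T₂ : Module.End k V) (hc : T₁ * T₂ = T₂ * T₁) (W : Submodule k V)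
    (hW : W ≠ ⊥) (h₁ : ∀ v ∈ W, T₁ v ∈ W) (h₂ : ∀ v ∈ W, T₂ v ∈ W) :
    ∃ (a b : k) (v : V), v ∈ W ∧ v ≠ 0 ∧ T₁ v = a • v ∧ T₂ v = b • v := by
  obtain ⟨a, v, hvW, hv0, hv⟩ := w_eig T₁ W hW h₁
  obtain ⟨b, x, hx, hx0, hx2⟩ := w_eig T₂ (W ⊓ T₁.eigenspace a) (by
    intro h
    have : v ∈ W ⊓ T₁.eigenspace a := ⟨hvW, Module.End.mem_eigenspace_iff.2 hv⟩
    rw [h] at this
    exact hv0 this) (by
    rintro y ⟨hy, hy'⟩
    refine ⟨h₂ y hy, Module.End.mem_eigenspace_iff.2 ?_⟩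
    have e := Module.End.mem_eigenspace_iff.1 hy'
    have : T₁ (T₂ y) = T₂ (T₁ y) := by
      rw [← Module.End.mul_apply, hc, Module.End.mul_apply]
    rw [this, e, map_smul])
  exact ⟨a, b, x, hx.1, hx0, Module.End.mem_eigenspace_iff.1 hx.2, hx2⟩

omit [FiniteDimensional k V] in
theorem w_pow (T : Module.End k V) {a : k} {v : V} (h : T v = a • v) (n : ℕ) :
    (T ^ n) v = a ^ n • v := by
  induction n with
  | zero => simp
  | succ n ih => rw [pow_succ', Module.End.mul_apply, ih, map_smul, h, smul_smul, pow_succ]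

omit [FiniteDimensional k V] in
theorem w_root (T : Module.End k V) {l : ℕ} (hT : T ^ l = 1) {a : k} {v : V} (hv : v ≠ 0)
    (h : T v = a • v) : a ^ l = 1 := by
  have := w_pow T h l
  rw [hT, Module.End.one_apply] at this
  have h2 : (a ^ l - 1) • v = 0 := by rw [sub_smul, ← this, one_smul, sub_self]
  exact sub_eq_zero.1 ((smul_eq_zero.1 h2).resolve_right hv)

omit [FiniteDimensional k V] in
theorem w_ne (T : Module.End k V) {l : ℕ} (hl : (l : k) ≠ 0) (hT : T ^ l = 1) {a : k} {v x : V}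
    (hv : v ≠ 0) (h : T v = a • v) (hx : (T - 1) x = v) : a ≠ 1 := by
  rintro rfl
  have h1 : (∑ i ∈ Finset.range l, T ^ i) v = 0 := by
    rw [← hx, ← Module.End.mul_apply, geom_sum_mul, hT, sub_self, LinearMap.zero_apply]
  rw [LinearMap.sum_apply] at h1
  simp only [w_pow T h, one_pow, one_smul, Finset.sum_const, Finset.card_range] at h1
  rw [← Nat.cast_smul_eq_nsmul k] at h1
  exact hv ((smul_eq_zero.1 h1).resolve_left hl)

omit [FiniteDimensional k V] in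
theorem w_conj {H : Type u} [Group H] (ρ : Representation k H V) {g y z : H} (h : g * y * g⁻¹ = z)
    {a : k} {v : V} (hv : ρ z v = a • v) : ρ y (ρ g⁻¹ v) = a • ρ g⁻¹ v := by
  rw [← map_smul, ← hv, ← Module.End.mul_apply, ← Module.End.mul_apply, ← map_mul, ← map_mul, ← h]
  congr 2
  group

omit [FiniteDimensional k V] in
theorem w_inj {H : Type u} [Group H] (ρ : Representation k H V) (g : H) :
    Function.Injective (ρ g) := by
  intro a b h
  have := congrArg (ρ g⁻¹) h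
  rwa [← Module.End.mul_apply, ← Module.End.mul_apply, ← map_mul, inv_mul_cancel, map_one,
    Module.End.one_apply, Module.End.one_apply] at this

omit [FiniteDimensional k V] in
theorem w_ne0 {H : Type u} [Group H] (ρ : Representation k H V) (g : H) {v : V} (hv : v ≠ 0) :
    ρ g v ≠ 0 := fun h => hv (w_inj ρ g (by rw [h, map_zero]))

end

theorem lw : LW.{u} := by
  intro k _ _ V _ _ _ H _ ρ l hl hlk y L L₀ b hy hL hc hg hb ⟨x, hx, hne⟩
  classical
  have hT : (ρ y) ^ l = 1 := by rw [← map_pow, hy, map_one]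
  have hss : Module.End.IsSemisimple (ρ y) := by
    refine Module.End.isSemisimple_of_squarefree_aeval_eq_zero
      (p := Polynomial.X ^ l - 1) (Polynomial.X_pow_sub_one_separable_iff.2 hlk).squarefree ?_
    simp [hT]
  have htop := hss.iSup_eigenspace_eq_top
  have hinv : ∀ μ, ∀ x ∈ L, ∀ v ∈ Module.End.eigenspace (ρ y) μ,
      ρ x v ∈ Module.End.eigenspace (ρ y) μ := by
    intro μ x hx v hv
    rw [Module.End.mem_eigenspace_iff] at hv ⊢
    rw [← Module.End.mul_apply, ← map_mul, ← hc x hx, map_mul, Module.End.mul_apply, hv, map_smul]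
  obtain ⟨μ, v, hv, hv'⟩ : ∃ μ, ∃ v ∈ Module.End.eigenspace (ρ y) μ,
      ((ρ y - 1) * (ρ x - 1)) v ≠ 0 := by
    by_contra hcon
    push Not at hcon
    apply hne
    rw [← LinearMap.ker_eq_top, eq_top_iff, ← htop]
    exact iSup_le fun μ v hv => hcon μ v hv
  have hw : (ρ x - 1) v ∈ Module.End.eigenspace (ρ y) μ := by
    rw [LinearMap.sub_apply, Module.End.one_apply]
    exact Submodule.sub_mem _ (hinv μ x (hL hx) v hv) hv
  rw [Module.End.mul_apply, LinearMap.sub_apply, Module.End.mem_eigenspace_iff.1 hw,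
    Module.End.one_apply] at hv'
  have hμ : μ ≠ 1 := by
    rintro rfl
    exact hv' (by rw [one_smul, sub_self])
  have hxv : ρ x v ≠ v := by
    intro h
    apply hv'
    rw [LinearMap.sub_apply, h, Module.End.one_apply, sub_self, smul_zero, sub_self]
  have hv0 : v ≠ 0 := by
    rintro rfl
    exact hxv (map_zero _)
  have hv1 := Module.End.mem_eigenspace_iff.1 hv
  have hroot := w_root _ hT hv0 hv1
  have := Fact.mk hl
  have hζ : IsPrimitiveRoot μ l := by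
    have := IsPrimitiveRoot.orderOf μ
    rwa [orderOf_eq_prime hroot hμ] at this
  have hind : iSupIndep fun j : Fin (l - 1) => Module.End.eigenspace (ρ y) (μ ^ (j.1 + 1)) := by
    refine (Module.End.eigenspaces_iSupIndep (ρ y)).comp (f := fun j : Fin (l - 1) => μ ^ (j.1 + 1)) ?_
    intro i j e
    have := hζ.pow_inj (by omega) (by omega) e
    exact Fin.ext (by omega)
  refine le_trans ?_ (w_sum _ hind)
  have : (l - 1) * b = ∑ _j : Fin (l - 1), b := by simp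
  rw [this]
  refine Finset.sum_le_sum fun j _ => hb _ (hinv _) ?_
  obtain ⟨g, hg1, hg2⟩ := hg (j.1 + 1) (by omega) (by omega)
  refine ⟨g⁻¹ * x * g, (hg2 _).2 (by simpa [mul_assoc] using hx), ρ g⁻¹ v, ?_, ?_⟩
  · rw [Module.End.mem_eigenspace_iff]
    refine w_conj ρ hg1 ?_
    rw [map_pow]
    exact w_pow _ hv1 _
  · intro h
    apply hxv
    apply w_inj ρ g⁻¹
    rw [← h, ← Module.End.mul_apply, ← Module.End.mul_apply, ← map_mul, ← map_mul]
    congr 2
    group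

theorem lw5 : LW5.{u} := by
  intro k _ _ V _ _ _ H _ ρ h5 y₁ y₂ w c h1 h2 hc hw1 hw2 hc1 hc2 hne
  have hT1 : (ρ y₁) ^ 5 = 1 := by rw [← map_pow, h1, map_one]
  have hT2 : (ρ y₂) ^ 5 = 1 := by rw [← map_pow, h2, map_one]
  have hcc : ρ y₁ * ρ y₂ = ρ y₂ * ρ y₁ := by rw [← map_mul, hc, map_mul]
  have hN : (ρ y₁ - 1) * (ρ y₂ - 1) = (ρ y₂ - 1) * (ρ y₁ - 1) := by
    simp only [mul_sub, sub_mul, hcc, mul_one, one_mul]; abel
  obtain ⟨a, b, v, ⟨x, hx⟩, hv0, ha, hb⟩ := w_eig2 (ρ y₁) (ρ y₂) hcc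
    (LinearMap.range ((ρ y₁ - 1) * (ρ y₂ - 1))) (by rwa [Ne, LinearMap.range_eq_bot]) (by
      rintro _ ⟨x, rfl⟩
      refine ⟨ρ y₁ x, ?_⟩
      rw [← Module.End.mul_apply, ← Module.End.mul_apply]
      congr 1
      have hC : Commute (ρ y₁) (ρ y₂) := hcc
      exact (((Commute.refl _).sub_right (Commute.one_right _)).mul_right
        (hC.sub_right (Commute.one_right _))).symm.eq) (by
      rintro _ ⟨x, rfl⟩
      refine ⟨ρ y₂ x, ?_⟩
      rw [← Module.End.mul_apply, ← Module.End.mul_apply]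
      congr 1
      have hC : Commute (ρ y₁) (ρ y₂) := hcc
      exact ((hC.symm.sub_right (Commute.one_right _)).mul_right
        ((Commute.refl _).sub_right (Commute.one_right _))).symm.eq)
  have h5' : ((5 : ℕ) : k) ≠ 0 := by exact_mod_cast h5
  have ha1 : a ≠ 1 := w_ne _ h5' hT1 hv0 ha hx
  have hb1 : b ≠ 1 := w_ne _ h5' hT2 hv0 hb (x := (ρ y₁ - 1) x) (by rw [← hx, hN]; rfl)
  have har := w_root _ hT1 hv0 ha
  have hbr := w_root _ hT2 hv0 hb
  have : Fact (Nat.Prime 5) := ⟨by norm_num⟩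
  have hζ : IsPrimitiveRoot a 5 := by
    have := IsPrimitiveRoot.orderOf a
    rwa [orderOf_eq_prime har ha1] at this
  obtain ⟨j, hj, rfl⟩ := hζ.eq_pow_of_pow_eq_one hbr
  let P : ℕ → ℕ → Prop := fun i j => ∃ v : V, v ≠ 0 ∧ ρ y₁ v = a ^ i • v ∧ ρ y₂ v = a ^ j • v
  have hmod : ∀ n, a ^ (n % 5) = a ^ n := fun n => (pow_eq_pow_mod n har).symm
  have W : ∀ i j, P i j → P j (2 * i % 5) := by
    rintro i j ⟨v, hv0, h₁, h₂⟩
    refine ⟨ρ w⁻¹ v, w_ne0 ρ _ hv0, w_conj ρ hw1 h₂, w_conj ρ hw2 ?_⟩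
    rw [map_pow, w_pow _ h₁, hmod, ← pow_mul, mul_comm]
  have hinv : y₁⁻¹ = y₁ ^ 4 := by
    rw [inv_eq_iff_mul_eq_one, ← pow_succ', h1]
  have C : ∀ i j, P i j → P (4 * i % 5) j := by
    rintro i j ⟨v, hv0, h₁, h₂⟩
    refine ⟨ρ c⁻¹ v, w_ne0 ρ _ hv0, w_conj ρ hc1 ?_, w_conj ρ hc2 h₂⟩
    rw [hinv, map_pow, w_pow _ h₁, hmod, ← pow_mul, mul_comm]
  have hP : P 1 j := ⟨v, hv0, by rw [pow_one]; exact ha, hb⟩
  have p11 : P 1 1 := by
    have q43 : P 4 3 → P 1 1 := fun h => W 3 1 (W 3 3 (W 4 3 h))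
    interval_cases j
    · exact absurd (pow_zero a) hb1
    · exact hP
    · exact q43 (W 4 4 (W 2 4 (W 2 2 (W 1 2 hP))))
    · exact q43 (C 1 3 hP)
    · exact q43 (W 4 4 (C 1 4 hP))
  have p12 : P 1 2 := W 1 1 p11
  have p22 : P 2 2 := W 1 2 p12
  have p24 : P 2 4 := W 2 2 p22
  have p44 : P 4 4 := W 2 4 p24
  have p43 : P 4 3 := W 4 4 p44
  have p33 : P 3 3 := W 4 3 p43
  have p31 : P 3 1 := W 3 3 p33
  have p41 : P 4 1 := C 1 1 p11
  have p13 : P 1 3 := W 4 1 p41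
  have p32 : P 3 2 := W 1 3 p13
  have p21 : P 2 1 := W 3 2 p32
  have p14 : P 1 4 := W 2 1 p21
  have p42 : P 4 2 := W 1 4 p14
  have p23 : P 2 3 := W 4 2 p42
  have p34 : P 3 4 := W 2 3 p23
  have := w_joint' (ρ y₁) (ρ y₂) hζ (Finset.Icc 1 4 ×ˢ Finset.Icc 1 4) (by
    rintro ⟨i, j⟩ h
    simp only [Finset.mem_product, Finset.mem_Icc] at h ⊢
    omega) (by
    rintro ⟨i, j⟩ h
    simp only [Finset.mem_product, Finset.mem_Icc] at h
    obtain ⟨⟨h1, h2⟩, h3, h4⟩ := h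
    change P i j
    interval_cases i <;> interval_cases j <;> assumption)
  simpa using this

theorem lw3 : LW3.{u} := by
  intro k _ _ V _ _ _ H _ ρ h3 y₁ y₂ w h1 h2 hc hw1 hw2 hne
  have hT1 : (ρ y₁) ^ 3 = 1 := by rw [← map_pow, h1, map_one]
  have hT2 : (ρ y₂) ^ 3 = 1 := by rw [← map_pow, h2, map_one]
  have hcc : ρ y₁ * ρ y₂ = ρ y₂ * ρ y₁ := by rw [← map_mul, hc, map_mul]
  obtain ⟨a, b, v, ⟨x, hx⟩, hv0, ha, hb⟩ := w_eig2 (ρ y₁) (ρ y₂) hcc
    (LinearMap.range (ρ y₁ - 1)) (by rwa [Ne, LinearMap.range_eq_bot, sub_eq_zero]) (by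
      rintro _ ⟨x, rfl⟩
      refine ⟨ρ y₁ x, ?_⟩
      simp) (by
      rintro _ ⟨x, rfl⟩
      refine ⟨ρ y₂ x, ?_⟩
      rw [← Module.End.mul_apply, ← Module.End.mul_apply]
      congr 1
      simp only [mul_sub, sub_mul, mul_one, one_mul, hcc])
  have h3' : ((3 : ℕ) : k) ≠ 0 := by exact_mod_cast h3
  have ha1 : a ≠ 1 := w_ne _ h3' hT1 hv0 ha hx
  have har := w_root _ hT1 hv0 ha
  have hbr := w_root _ hT2 hv0 hb
  have : Fact (Nat.Prime 3) := ⟨by norm_num⟩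
  have hζ : IsPrimitiveRoot a 3 := by
    have := IsPrimitiveRoot.orderOf a
    rwa [orderOf_eq_prime har ha1] at this
  obtain ⟨j, hj, rfl⟩ := hζ.eq_pow_of_pow_eq_one hbr
  let P : ℕ → ℕ → Prop := fun i j => ∃ v : V, v ≠ 0 ∧ ρ y₁ v = a ^ i • v ∧ ρ y₂ v = a ^ j • v
  have hmod : ∀ n, a ^ (n % 3) = a ^ n := fun n => (pow_eq_pow_mod n har).symm
  have hinv : y₁⁻¹ = y₁ ^ 2 := by
    rw [inv_eq_iff_mul_eq_one, ← pow_succ', h1]
  have W : ∀ i j, P i j → P j (2 * i % 3) := by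
    rintro i j ⟨v, hv0, h₁, h₂⟩
    refine ⟨ρ w⁻¹ v, w_ne0 ρ _ hv0, w_conj ρ hw1 h₂, w_conj ρ hw2 ?_⟩
    rw [hinv, map_pow, w_pow _ h₁, hmod, ← pow_mul, mul_comm]
  have hP : P 1 j := ⟨v, hv0, by rw [pow_one]; exact ha, hb⟩
  have key : ∀ s : Finset (ℕ × ℕ), s.card = 4 → (∀ p ∈ s, p.1 < 3 ∧ p.2 < 3) →
      (∀ p ∈ s, P p.1 p.2) → 4 ≤ Module.finrank k V := fun s h4 hs hv =>
    h4 ▸ w_joint' (ρ y₁) (ρ y₂) hζ s hs hv
  have k11 : P 1 1 → 4 ≤ Module.finrank k V := by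
    intro p11
    have p12 : P 1 2 := W 1 1 p11
    have p22 : P 2 2 := W 1 2 p12
    have p21 : P 2 1 := W 2 2 p22
    refine key {(1, 1), (1, 2), (2, 2), (2, 1)} (by decide) (by decide) ?_
    simp only [Finset.mem_insert, Finset.mem_singleton]
    rintro _ (rfl | rfl | rfl | rfl) <;> assumption
  interval_cases j
  · have p02 : P 0 2 := W 1 0 hP
    have p20 : P 2 0 := W 0 2 p02
    have p01 : P 0 1 := W 2 0 p20
    refine key {(1, 0), (0, 2), (2, 0), (0, 1)} (by decide) (by decide) ?_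
    simp only [Finset.mem_insert, Finset.mem_singleton]
    rintro _ (rfl | rfl | rfl | rfl) <;> assumption
  · exact k11 hP
  · exact k11 (W 2 1 (W 2 2 (W 1 2 hP)))

end Cfsg.Agent.AltL
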