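import Cfsg.Agent.AltL.B3
import Cfsg.Agent.AltL.G
import Cfsg.Agent.AltL.H
import Cfsg.Agent.AltL.W
import Cfsg.Agent.AltL.E1
import Cfsg.Agent.AltL.E2

namespace Cfsg.Agent.AltL

universe u

theorem tc : TC.{u} := e_big lw (th tb tg) (e_small lw lw5 lw3 (th tb tg))

end Cfsg.Agent.AltL
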